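import Mathlib
import Cfsg.Agent.Base

/-!
# Rational representations of degree 23: forms, lattices and invariant systems of lines
-/

set_option autoImplicit false

namespace H16.Q23

open Module

/-- a rational number that is an integer -/
def I (q : ℚ) : Prop := ∃ n : ℤ, q = n

theorem I.int (n : ℤ) : I n := ⟨n, rfl⟩
theorem I.nat (n : ℕ) : I n := ⟨n, by simp⟩
theorem I.zero : I 0 := ⟨0, by simp⟩
theorem I.one : I 1 := ⟨1, by simp⟩
theorem I.add {a b : ℚ} (ha : I a) (hb : I b) : I (a + b) := by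
  obtain ⟨m, rfl⟩ := ha; obtain ⟨n, rfl⟩ := hb; exact ⟨m + n, by push_cast; rfl⟩
theorem I.mul {a b : ℚ} (ha : I a) (hb : I b) : I (a * b) := by
  obtain ⟨m, rfl⟩ := ha; obtain ⟨n, rfl⟩ := hb; exact ⟨m * n, by push_cast; rfl⟩
theorem I.neg {a : ℚ} (ha : I a) : I (-a) := by
  obtain ⟨m, rfl⟩ := ha; exact ⟨-m, by push_cast; rfl⟩
theorem I.sub {a b : ℚ} (ha : I a) (hb : I b) : I (a - b) := by
  rw [sub_eq_add_neg]; exact ha.add hb.neg
theorem I.of_eq {a b : ℚ} (ha : I a) (h : b = a) : I b := h ▸ ha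
theorem I.sum {ι : Type*} (s : Finset ι) {f : ι → ℚ} (h : ∀ i ∈ s, I (f i)) : I (∑ i ∈ s, f i) :=
  Finset.sum_induction f I (fun _ _ => I.add) I.zero h

theorem I.of_coprime {q : ℚ} {a b : ℤ} (h : IsCoprime a b) (ha : I (a * q)) (hb : I (b * q)) : I q := by
  obtain ⟨u, v, huv⟩ := h
  have : (u : ℚ) * a + v * b = 1 := by exact_mod_cast huv
  exact (((I.int u).mul ha).add ((I.int v).mul hb)).of_eq (by linear_combination (-q) * this)

theorem I.div_iff {a b : ℤ} (hb : b ≠ 0) : I ((a : ℚ) / b) ↔ b ∣ a := by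
  have hb' : (b : ℚ) ≠ 0 := by exact_mod_cast hb
  constructor
  · rintro ⟨n, hn⟩
    refine ⟨n, ?_⟩
    rw [div_eq_iff hb'] at hn
    exact_mod_cast hn.trans (mul_comm _ _)
  · rintro ⟨n, rfl⟩
    exact ⟨n, by push_cast; field_simp⟩

variable {V : Type*} [AddCommGroup V] [Module ℚ V]

/-- symmetric positive definite form -/
structure PD (β : LinearMap.BilinForm ℚ V) : Prop where
  symm : ∀ x y, β x y = β y x
  pos : ∀ x, x ≠ 0 → 0 < β x x

namespace PD

variable {β : LinearMap.BilinForm ℚ V} (h : PD β)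
include h

theorem nonneg (x : V) : 0 ≤ β x x := by
  by_cases hx : x = 0
  · simp [hx]
  · exact (h.pos x hx).le

theorem eq_zero {x : V} (hx : β x x ≤ 0) : x = 0 := by
  by_contra c
  exact absurd (h.pos x c) (not_lt.2 hx)

theorem nsub (x y : V) : β (x - y) (x - y) = β x x - 2 * β x y + β y y := by
  simp only [map_sub, LinearMap.sub_apply, h.symm y x]; ring

theorem nadd (x y : V) : β (x + y) (x + y) = β x x + 2 * β x y + β y y := by
  simp only [map_add, LinearMap.add_apply, h.symm y x]; ring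

theorem cs (x y : V) : β x y ^ 2 ≤ β x x * β y y := by
  by_cases hy : y = 0
  · simp [hy]
  have h1 := h.pos y hy
  have h2 := h.nonneg (β y y • x - β x y • y)
  rw [h.nsub] at h2
  simp only [map_smul, LinearMap.smul_apply, smul_eq_mul] at h2
  nlinarith

theorem nondeg : β.Nondegenerate :=
  ⟨fun x hx => h.eq_zero (hx x).le, fun x hx => h.eq_zero (hx x).le⟩

end PD

theorem zsmul_eq (n : ℤ) (x : V) : (n : ℚ) • x = n • x := Int.cast_smul_eq_zsmul ℚ n x

theorem I.smul_mem {L : Submodule ℤ V} {c : ℚ} (hc : I c) {x : V} (hx : x ∈ L) : c • x ∈ L := by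
  obtain ⟨n, rfl⟩ := hc
  rw [zsmul_eq]; exact L.smul_mem n hx

theorem exists_smul_mem (L : Submodule ℤ V) [hL : L.IsLattice ℚ] (x : V) :
    ∃ n : ℕ, 0 < n ∧ (n : ℚ) • x ∈ L := by
  have hx : x ∈ Submodule.span ℚ (L : Set V) := by rw [hL.span_eq_top]; trivial
  induction hx using Submodule.span_induction with
  | mem x hx => exact ⟨1, one_pos, by simpa using hx⟩
  | zero => exact ⟨1, one_pos, by simp⟩
  | add x y _ _ hx hy =>
    obtain ⟨m, hm, hx⟩ := hx
    obtain ⟨n, hn, hy⟩ := hy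
    refine ⟨m * n, Nat.mul_pos hm hn, ?_⟩
    have := L.add_mem ((I.nat n).smul_mem hx) ((I.nat m).smul_mem hy)
    convert this using 1
    rw [smul_smul, smul_smul, smul_add]; push_cast; rw [mul_comm (n : ℚ)]
  | smul c x _ hx =>
    obtain ⟨m, hm, hx⟩ := hx
    refine ⟨m * c.den, Nat.mul_pos hm c.den_pos, ?_⟩
    have := (I.int c.num).smul_mem hx
    convert this using 1
    rw [smul_smul, smul_smul, ← Rat.mul_den_eq_num c]; push_cast; congr 1; ring

theorem isLattice_of (L M : Submodule ℤ V) [hL : L.IsLattice ℚ] (hfg : M.FG)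
    (h : ∀ x ∈ L, ∃ c : ℚ, c ≠ 0 ∧ c • x ∈ M) : M.IsLattice ℚ := by
  refine ⟨hfg, ?_⟩
  rw [eq_top_iff, ← hL.span_eq_top, Submodule.span_le]
  intro x hx
  obtain ⟨c, hc, hx⟩ := h x hx
  have := Submodule.smul_mem _ c⁻¹ (Submodule.subset_span (R := ℚ) (s := (M : Set V)) hx)
  rwa [smul_smul, inv_mul_cancel₀ hc, one_smul] at this

omit [Module ℚ V] in
theorem fg_of_le {L M : Submodule ℤ V} (hL : L.FG) (h : M ≤ L) : M.FG :=
  Submodule.FG.of_le hL h

theorem exists_intForm (β : LinearMap.BilinForm ℚ V) (L : Submodule ℤ V)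
    (h : ∀ x ∈ L, ∀ y ∈ L, I (β x y)) :
    ∃ γ : LinearMap.BilinForm ℤ L, ∀ x y : L, (γ x y : ℚ) = β x y := by
  choose f hf using fun x y : L => h x x.2 y y.2
  refine ⟨LinearMap.mk₂ ℤ f ?_ ?_ ?_ ?_, fun x y => (hf x y).symm⟩
  · intro a b c
    have : (f (a + b) c : ℚ) = f a c + f b c := by simp [← hf]
    exact_mod_cast this
  · intro n a b
    have : (f (n • a) b : ℚ) = n * f a b := by simp [← hf]
    exact_mod_cast this
  · intro a b c
    have : (f a (b + c) : ℚ) = f a b + f a c := by simp [← hf]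
    exact_mod_cast this
  · intro n a b
    have : (f a (n • b) : ℚ) = n * f a b := by simp [← hf]
    exact_mod_cast this

variable {G : Type*} [Group G]

theorem app_mul (ρ : Representation ℚ G V) (g h : G) (x : V) : ρ (g * h) x = ρ g (ρ h x) := by
  rw [map_mul]; rfl

theorem app_one (ρ : Representation ℚ G V) (x : V) : ρ 1 x = x := by
  rw [map_one]; rfl

theorem app_inv (ρ : Representation ℚ G V) (g : G) (x : V) : ρ g⁻¹ (ρ g x) = x := by
  rw [← app_mul, inv_mul_cancel, app_one]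

theorem app_inv' (ρ : Representation ℚ G V) (g : G) (x : V) : ρ g (ρ g⁻¹ x) = x := by
  rw [← app_mul, mul_inv_cancel, app_one]

theorem app_ne (ρ : Representation ℚ G V) (g : G) {x : V} (hx : x ≠ 0) : ρ g x ≠ 0 := fun c => by
  have := app_inv ρ g x
  rw [c, map_zero] at this
  exact hx this.symm

/-- irreducible of degree 23, without subgroups of index 23 or 24 -/
structure Irr (ρ : Representation ℚ G V) : Prop where
  rank : finrank ℚ V = 23
  irr : ∀ W : Submodule ℚ V, (∀ g, ∀ w ∈ W, ρ g w ∈ W) → W = ⊥ ∨ W = ⊤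
  idx : ∀ H : Subgroup G, H.index ≠ 23 ∧ H.index ≠ 24

namespace Irr

variable {ρ : Representation ℚ G V} (h : Irr ρ)
include h

theorem fin : FiniteDimensional ℚ V := Module.finite_of_finrank_pos (by rw [h.rank]; norm_num)

theorem span_orbit {y : V} (hy : y ≠ 0) (W : Submodule ℚ V) (hW : ∀ g, ρ g y ∈ W) : W = ⊤ := by
  rcases h.irr (Submodule.span ℚ (Set.range fun g => ρ g y)) (fun g w hw => by
    induction hw using Submodule.span_induction with
    | mem x hx =>
      obtain ⟨a, rfl⟩ := hx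
      exact Submodule.subset_span ⟨g * a, app_mul ρ g a y⟩
    | zero => simp
    | add x y _ _ hx hy => rw [map_add]; exact Submodule.add_mem _ hx hy
    | smul c x _ hx => rw [map_smul]; exact Submodule.smul_mem _ c hx) with c | c
  · exfalso
    have : ρ 1 y ∈ Submodule.span ℚ (Set.range fun g => ρ g y) := Submodule.subset_span ⟨1, rfl⟩
    rw [c, app_one] at this
    exact hy this
  · rw [eq_top_iff, ← c, Submodule.span_le]
    rintro _ ⟨g, rfl⟩
    exact hW g

theorem exists_not_par {y : V} (hy : y ≠ 0) (v : V) : ∃ g, ∀ c : ℚ, ρ g y ≠ c • v := by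
  by_contra c
  push Not at c
  have := h.span_orbit hy (Submodule.span ℚ {v}) fun g => by
    obtain ⟨a, ha⟩ := c g
    exact Submodule.mem_span_singleton.2 ⟨a, ha.symm⟩
  have h1 := finrank_span_le_card (R := ℚ) ({v} : Set V)
  rw [this, finrank_top, h.rank] at h1
  simp at h1

theorem exists_not_orth {β : LinearMap.BilinForm ℚ V} (hβ : PD β) {y v : V} (hy : y ≠ 0) (hv : v ≠ 0) :
    ∃ g, β (ρ g y) v ≠ 0 := by
  by_contra c
  push Not at c
  have := h.span_orbit hy (LinearMap.ker (β v)) fun g => by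
    rw [LinearMap.mem_ker, hβ.symm]; exact c g
  have h1 : v ∈ LinearMap.ker (β v) := by rw [this]; trivial
  exact (hβ.pos v hv).ne' h1

variable [Finite G]

theorem frame {y : V} (hy : y ≠ 0) :
    ∃ H : Subgroup G, 25 ≤ H.index ∧ ∀ g, g ∈ H ↔ ∃ c : ℚ, ρ g y = c • y := by
  let H : Subgroup G :=
    { carrier := {g | ∃ c : ℚ, ρ g y = c • y}
      one_mem' := ⟨1, by simp⟩
      mul_mem' := by
        rintro a b ⟨c, hc⟩ ⟨d, hd⟩
        exact ⟨d * c, by rw [app_mul, hd, map_smul, hc, smul_smul]⟩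
      inv_mem' := by
        rintro a ⟨c, hc⟩
        have hc0 : c ≠ 0 := by
          rintro rfl
          exact app_ne ρ a hy (by rw [hc, zero_smul])
        refine ⟨c⁻¹, ?_⟩
        have := app_inv ρ a y
        rw [hc, map_smul] at this
        rw [eq_inv_smul_iff₀ hc0, this] }
  refine ⟨H, ?_, fun g => Iff.rfl⟩
  classical
  have := Fintype.ofFinite (G ⧸ H)
  have h1 := h.span_orbit hy (Submodule.span ℚ (Set.range fun q : G ⧸ H => ρ q.out y)) fun g => by
    obtain ⟨a, ha⟩ := QuotientGroup.mk_out_eq_mul H g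
    obtain ⟨c, hc⟩ := H.inv_mem a.2
    have : g = (QuotientGroup.mk g : G ⧸ H).out * (a : G)⁻¹ := by rw [ha]; group
    rw [this, app_mul, hc, map_smul]
    exact Submodule.smul_mem _ _ (Submodule.subset_span ⟨_, rfl⟩)
  have h2 := finrank_range_le_card (R := ℚ) fun q : G ⧸ H => ρ q.out y
  rw [Set.finrank, h1, finrank_top, h.rank, ← Nat.card_eq_fintype_card] at h2
  have h3 := h.idx H
  change 23 ≤ H.index at h2
  omega

theorem frame1 {y : V} (hy : y ≠ 0) {ι : Type*} [Fintype ι] (hι : Fintype.card ι ≤ 24) (F : G → ι)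
    (hF : ∀ g k, F g = F k → ∃ c : ℚ, ρ k y = c • ρ g y) : False := by
  obtain ⟨H, h1, h2⟩ := h.frame hy
  have : Function.Injective fun q : G ⧸ H => F q.out := by
    intro p q hpq
    obtain ⟨c, hc⟩ := hF _ _ hpq
    rw [← p.out_eq', ← q.out_eq', QuotientGroup.eq, h2]
    exact ⟨c, by rw [app_mul, hc, map_smul, app_inv]⟩
  have h3 := Nat.card_le_card_of_injective _ this
  rw [Nat.card_eq_fintype_card (α := ι)] at h3
  change H.index ≤ _ at h3
  omega

theorem orth {β : LinearMap.BilinForm ℚ V} (hβ : PD β) (hi : ∀ g x y, β (ρ g x) (ρ g y) = β x y)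
    {y : V} (hy : y ≠ 0) (hF : ∀ g, (∃ c : ℚ, ρ g y = c • y) ∨ β (ρ g y) y = 0) : False := by
  obtain ⟨H, h1, h2⟩ := h.frame hy
  have := h.fin
  classical
  have := Fintype.ofFinite (G ⧸ H)
  have : LinearIndependent ℚ fun q : G ⧸ H => ρ q.out y := by
    refine LinearMap.BilinForm.linearIndependent_of_iIsOrtho (B := β) ?_
      fun q => (hβ.pos _ (app_ne ρ _ hy)).ne'
    intro p q hpq
    rcases hF (q.out⁻¹ * p.out) with c | c
    · exfalso
      apply hpq
      rw [← p.out_eq', ← q.out_eq', eq_comm, QuotientGroup.eq, h2]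
      exact c
    · have := hi q.out (ρ (q.out⁻¹ * p.out) y) y
      rw [c, app_mul, app_inv'] at this
      exact this
  have h3 := this.fintype_card_le_finrank
  rw [h.rank, ← Nat.card_eq_fintype_card] at h3
  change H.index ≤ _ at h3
  omega

theorem simplex {β : LinearMap.BilinForm ℚ V} (hβ : PD β) (hi : ∀ g x y, β (ρ g x) (ρ g y) = β x y)
    {y v : V} (hy : y ≠ 0) {n κ δ w : ℚ} (hn : β y y = n) (hw : β v v = w) (hw0 : 0 < w)
    (h1 : ∀ g, (∃ c : ℚ, ρ g y = c • v) ∨ β (ρ g y) v = κ ∨ β (ρ g y) v = -κ)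
    (h2 : ∀ s t : V, (∃ g, s = ρ g y ∨ s = -ρ g y) → (∃ g, t = ρ g y ∨ t = -ρ g y) → β s v = κ →
      β t v = κ → s ≠ t → δ ≤ β (s - t) (s - t))
    (h3 : ∀ m : ℚ, 24 ≤ m → (n + (m - 1) * (n - δ / 2)) * w < m * κ ^ 2) : False := by
  classical
  have := Fintype.ofFinite G
  let T : Finset V := ((Finset.univ.image fun g => ρ g y) ∪ Finset.univ.image fun g => -ρ g y).filter
    fun t => β t v = κ
  have hT : ∀ t, t ∈ T ↔ (∃ g, t = ρ g y ∨ t = -ρ g y) ∧ β t v = κ := by
    intro t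
    simp only [T, Finset.mem_filter, Finset.mem_union, Finset.mem_image, Finset.mem_univ, true_and,
      exists_or, eq_comm (a := t)]
  have hTn : ∀ t ∈ T, β t t = n := by
    intro t ht
    obtain ⟨⟨g, rfl | rfl⟩, -⟩ := (hT t).1 ht
    · rw [hi, hn]
    · simp [hi, hn]
  have hc : T.card ≤ 23 := by
    by_contra c
    have c1 : (24 : ℚ) ≤ T.card := by exact_mod_cast (by omega : 24 ≤ T.card)
    have e1 : β (∑ t ∈ T, t) v = T.card * κ := by
      rw [map_sum, LinearMap.sum_apply, Finset.sum_congr rfl fun t ht => ((hT t).1 ht).2]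
      simp
    have e2 : β (∑ t ∈ T, t) (∑ t ∈ T, t) ≤ T.card * (n + (T.card - 1) * (n - δ / 2)) := by
      rw [map_sum, ← nsmul_eq_mul]
      refine Finset.sum_le_card_nsmul _ _ _ fun t ht => ?_
      rw [map_sum, LinearMap.sum_apply, ← Finset.add_sum_erase _ _ ht, hTn t ht]
      have := Finset.sum_le_card_nsmul (T.erase t) (fun s => β s t) (n - δ / 2) fun s hs => by
        have hs' := Finset.mem_of_mem_erase hs
        have := h2 s t ((hT s).1 hs').1 ((hT t).1 ht).1 ((hT s).1 hs').2 ((hT t).1 ht).2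
          (Finset.ne_of_mem_erase hs)
        rw [hβ.nsub, hTn s hs', hTn t ht] at this
        linarith
      rw [Finset.card_erase_of_mem ht, nsmul_eq_mul, Nat.cast_sub (by omega), Nat.cast_one] at this
      linarith
    have e3 := hβ.cs (∑ t ∈ T, t) v
    rw [e1, hw] at e3
    have e4 := h3 _ c1
    have e5 := mul_le_mul_of_nonneg_right e2 hw0.le
    nlinarith
  have h4 : ∀ g, ∃ o : Option T, ∃ c : ℚ, ρ g y = c • o.elim v (↑) := by
    intro g
    rcases h1 g with ⟨c, hc⟩ | c | c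
    · exact ⟨none, c, hc⟩
    · exact ⟨some ⟨ρ g y, (hT _).2 ⟨⟨g, .inl rfl⟩, c⟩⟩, 1, by simp⟩
    · exact ⟨some ⟨-ρ g y, (hT _).2 ⟨⟨g, .inr rfl⟩, by simp [c]⟩⟩, -1, by simp⟩
  choose F c hF using h4
  refine h.frame1 hy (by simp; omega) F fun g k hgk => ?_
  have hc0 : c g ≠ 0 := fun e => app_ne ρ g hy (by rw [hF, e, zero_smul])
  exact ⟨c k / c g, by rw [hF k, hF g, hgk, smul_smul, div_mul_cancel₀ _ hc0]⟩

end Irr

theorem eqns_Basic : True := by
  have := @I.eq_1
  trivial

end H16.Q23
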