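import Mathlib
import Cfsg.Agent.S0752
import Cfsg.Agent.Lib.Q23.Basic

/-!
# Rational representations of degree 23: absolute irreducibility and elements of order 23
-/

set_option autoImplicit false

namespace H16.Q23

open Module Polynomial

theorem alt_radical {F U : Type*} [Field F] [AddCommGroup U] [Module F U] [FiniteDimensional F U]
    (B : LinearMap.BilinForm F U) (hA : B.IsAlt) :
    ∃ m, finrank F U = 2 * m + finrank F (LinearMap.ker B) := by
  obtain ⟨m, k, b, e1, e2, e3, e4⟩ := Cfsg.Agent.S0752.result B hA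
  refine ⟨m, ?_⟩
  have hk : LinearMap.ker B = Submodule.span F (Set.range fun j => b (.inr j)) := by
    apply le_antisymm
    · intro x hx
      have h0 : ∀ y, B x y = 0 := fun y => by rw [LinearMap.mem_ker.1 hx]; rfl
      have hs := b.sum_repr x
      have h1 : ∀ j, b.repr x (.inl (.inl j)) = 0 := by
        intro j
        have := h0 (b (.inl (.inr j)))
        rw [← hs] at this
        simpa [e1, e3, e4, Fintype.sum_sum_type, -Basis.sum_repr] using this
      have h2 : ∀ j, b.repr x (.inl (.inr j)) = 0 := by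
        intro j
        have := h0 (b (.inl (.inl j)))
        rw [← hs] at this
        have e1' : ∀ i j : Fin m, B (b (.inl (.inr i))) (b (.inl (.inl j))) = -if j = i then 1 else 0 :=
          fun i j => by rw [← e1, hA.neg_eq]
        simpa [e1', e2, e4, Fintype.sum_sum_type, -Basis.sum_repr] using this
      rw [← hs, Fintype.sum_sum_type, Fintype.sum_sum_type]
      simp only [h1, h2, zero_smul, Finset.sum_const_zero, zero_add]
      exact Submodule.sum_mem _ fun j _ => Submodule.smul_mem _ _ (Submodule.subset_span ⟨j, rfl⟩)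
    · rw [Submodule.span_le]
      rintro _ ⟨j, rfl⟩
      exact LinearMap.ext fun y => e4 j y
  rw [hk, finrank_span_eq_card (b := fun j => b (.inr j)) (b.linearIndependent.comp _ Sum.inr_injective),
    finrank_eq_card_basis b]
  simp; ring

variable {V : Type*} [AddCommGroup V] [Module ℚ V] {G : Type*} [Group G]

theorem cyc_dvd [FiniteDimensional ℚ V] (φ : End ℚ V) (p k : ℕ) [Fact p.Prime]
    (h1 : φ ^ p ^ (k + 1) = 1) (h2 : φ ^ p ^ k ≠ 1) : cyclotomic (p ^ (k + 1)) ℚ ∣ φ.charpoly := by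
  have hirr : Irreducible (cyclotomic (p ^ (k + 1)) ℚ) :=
    cyclotomic.irreducible_rat (pow_pos (Fact.out : p.Prime).pos _)
  by_contra c
  obtain ⟨a, b, hab⟩ := hirr.coprime_iff_not_dvd.2 c
  apply h2
  have e1 := congrArg (aeval φ) (cyclotomic_prime_pow_mul_X_pow_sub_one ℚ p k)
  have e2 := congrArg (fun q => aeval φ (q * (X ^ p ^ k - 1))) hab
  simp only [add_mul, mul_assoc, map_add, map_mul, LinearMap.aeval_self_charpoly] at e2
  simp only [map_mul, map_sub, map_pow, aeval_X, map_one, h1, sub_self] at e1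
  simp only [map_sub, map_pow, aeval_X, map_one, e1, mul_zero, zero_mul, add_zero, one_mul] at e2
  exact sub_eq_zero.1 e2.symm

theorem tot_le [FiniteDimensional ℚ V] (φ : End ℚ V) (p k : ℕ) [Fact p.Prime]
    (h1 : φ ^ p ^ (k + 1) = 1) (h2 : φ ^ p ^ k ≠ 1) : p ^ k * (p - 1) ≤ finrank ℚ V := by
  have := natDegree_le_of_dvd (cyc_dvd φ p k h1 h2) φ.charpoly_monic.ne_zero
  rwa [natDegree_cyclotomic, Nat.totient_prime_pow_succ Fact.out, LinearMap.charpoly_natDegree] at this

theorem trace_zero (hV : finrank ℚ V = 23) (φ : End ℚ V) (h1 : φ ^ 23 = 1) (h2 : φ ≠ 1) :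
    LinearMap.trace ℚ V φ = 0 := by
  have : FiniteDimensional ℚ V := Module.finite_of_finrank_pos (by rw [hV]; norm_num)
  have : Fact (Nat.Prime 23) := ⟨by norm_num⟩
  obtain ⟨q, hq⟩ := cyc_dvd φ 23 0 (by simpa using h1) (by simpa using h2)
  simp only [zero_add, pow_one] at hq
  have hm : q.Monic := (cyclotomic.monic 23 ℚ).of_mul_monic_left (hq ▸ φ.charpoly_monic)
  have hd : q.natDegree = 1 := by
    have := congrArg natDegree hq
    rw [(cyclotomic.monic 23 ℚ).natDegree_mul hm, natDegree_cyclotomic, LinearMap.charpoly_natDegree, hV,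
      Nat.totient_prime Fact.out] at this
    omega
  have hq1 := hm.eq_X_add_C hd
  have hr : φ.charpoly.IsRoot (-q.coeff 0) := by
    rw [hq, IsRoot, eval_mul, hq1]; simp
  obtain ⟨u, hu⟩ := ((End.hasEigenvalue_iff_isRoot_charpoly φ _).2 hr).exists_hasEigenvector
  have h3 := hu.pow_apply 23
  rw [h1, End.one_apply] at h3
  have h4 : (-q.coeff 0) ^ 23 = 1 := by
    have : ((-q.coeff 0) ^ 23 - 1) • u = 0 := by rw [sub_smul, ← h3, one_smul, sub_self]
    exact sub_eq_zero.1 ((smul_eq_zero.1 this).resolve_right hu.2)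
  have h5 : -q.coeff 0 = 1 := by
    rcases (pow_eq_one_iff_of_ne_zero (by norm_num)).1 h4 with c | c
    · exact c
    · exact absurd c.2 (by decide)
  classical
  let b := Module.finBasis ℚ V
  rw [LinearMap.trace_eq_matrix_trace ℚ b, Matrix.trace_eq_neg_charpoly_nextCoeff,
    LinearMap.charpoly_toMatrix, hq, (cyclotomic.monic 23 ℚ).nextCoeff_mul hm, hq1, nextCoeff_X_add_C,
    nextCoeff_of_natDegree_pos (by rw [natDegree_cyclotomic]; decide), natDegree_cyclotomic,
    Nat.totient_prime Fact.out, cyclotomic_prime]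
  simp only [finsetSum_coeff, coeff_X_pow]
  rw [Finset.sum_ite_eq]
  simp only [Finset.mem_range]
  norm_num
  linarith

theorem card_mul_fix {H : Type*} [Group H] [Finite H] (ρ : Representation ℚ H V) (hV : finrank ℚ V = 23)
    (h1 : ∀ g, ρ g ^ 23 = 1) (h2 : ∀ g, ρ g = 1 → g = 1) :
    Nat.card H * finrank ℚ ρ.invariants = 23 := by
  classical
  have : FiniteDimensional ℚ V := Module.finite_of_finrank_pos (by rw [hV]; norm_num)
  have := Fintype.ofFinite H
  have hc : (Fintype.card H : ℚ) ≠ 0 := by exact_mod_cast Fintype.card_ne_zero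
  let _ := invertibleOfNonzero hc
  have h3 := ρ.isProj_averageMap.trace
  simp only [Representation.averageMap, GroupAlgebra.average, map_smul, map_sum,
    Representation.asAlgebraHom_of, invOf_eq_inv, smul_eq_mul] at h3
  rw [Finset.sum_eq_single 1 (fun g _ hg => trace_zero hV _ (h1 g) fun c => hg (h2 g c)) (by simp),
    map_one, LinearMap.trace_one, hV, inv_mul_eq_iff_eq_mul₀ hc] at h3
  rw [Nat.card_eq_fintype_card]
  exact_mod_cast h3.symm

namespace Irr

variable {ρ : Representation ℚ G V} (h : Irr ρ) {β : LinearMap.BilinForm ℚ V} (hβ : PD β)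
  (hi : ∀ g x y, β (ρ g x) (ρ g y) = β x y)
include h hβ hi

theorem selfadj (φ : End ℚ V) (hφ : ∀ g x, φ (ρ g x) = ρ g (φ x)) (x y : V) :
    β (φ x) y = β x (φ y) := by
  have := h.fin
  let ω : LinearMap.BilinForm ℚ V := β.compLeft φ - β.compRight φ
  have hω : ∀ x y, ω x y = β (φ x) y - β x (φ y) := fun x y => rfl
  obtain ⟨m, hm⟩ := alt_radical ω fun x => by rw [hω, hβ.symm, sub_self]
  rcases h.irr (LinearMap.ker ω) (fun g w hw => LinearMap.ext fun y => by
    have := LinearMap.congr_fun (LinearMap.mem_ker.1 hw) (ρ g⁻¹ y)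
    rw [hω, ← hi g, ← hi g w, ← hφ, ← hφ, app_inv'] at this
    exact this) with c | c
  · rw [c, finrank_bot, h.rank] at hm
    omega
  · have : x ∈ LinearMap.ker ω := by rw [c]; trivial
    exact sub_eq_zero.1 (LinearMap.congr_fun (LinearMap.mem_ker.1 this) y)

theorem scalar (φ : End ℚ V) (hφ : ∀ g x, φ (ρ g x) = ρ g (φ x)) : ∃ c : ℚ, φ = c • 1 := by
  have := h.fin
  have hn : Nontrivial V := Module.nontrivial_of_finrank_pos (R := ℚ) (by rw [h.rank]; norm_num)
  let D : Subalgebra ℚ (End ℚ V) := Subalgebra.centralizer ℚ (Set.range ρ)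
  have hD : ∀ ψ, ψ ∈ D ↔ ∀ g x, ψ (ρ g x) = ρ g (ψ x) := by
    intro ψ
    rw [Subalgebra.mem_centralizer_iff]
    constructor
    · intro c g x
      exact (LinearMap.congr_fun (c _ ⟨g, rfl⟩) x).symm
    · rintro c _ ⟨g, rfl⟩
      exact LinearMap.ext fun x => (c g x).symm
  have hu : ∀ a : D, IsUnit a ∨ a = 0 := by
    intro a
    rcases h.irr (LinearMap.ker a.1) (fun g w hw => by
      rw [LinearMap.mem_ker, (hD _).1 a.2, LinearMap.mem_ker.1 hw, map_zero]) with c | c
    · left
      obtain ⟨u, hu⟩ := (LinearMap.isUnit_iff_ker_eq_bot a.1).2 c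
      have hm : (↑u⁻¹ : End ℚ V) ∈ D := by
        rw [Subalgebra.mem_centralizer_iff]
        intro z hz
        have := (Subalgebra.mem_centralizer_iff ℚ).1 a.2 z hz
        rw [← hu] at this
        exact (Commute.units_inv_right this).eq
      exact ⟨⟨a, ⟨_, hm⟩, Subtype.ext (by simp [← hu]), Subtype.ext (by simp [← hu])⟩, rfl⟩
    · right
      exact Subtype.ext (LinearMap.ker_eq_top.1 c)
  have hcomm : ∀ a b : D, ∀ x, a.1 (b.1 x) = b.1 (a.1 x) := by
    intro a b x
    refine sub_eq_zero.1 (hβ.nondeg.1 _ fun y => ?_)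
    have e1 := h.selfadj hβ hi (b * a).1 ((hD _).1 (b * a).2) x y
    have e2 := h.selfadj hβ hi a.1 ((hD _).1 a.2) (b.1 x) y
    have e3 := h.selfadj hβ hi b.1 ((hD _).1 b.2) x (a.1 y)
    rw [map_sub, LinearMap.sub_apply, e2, e3]
    exact sub_eq_zero.2 e1.symm
  let _ : DivisionRing D := DivisionRing.ofIsUnitOrEqZero hu
  have h1 := Module.finrank_mul_finrank ℚ D V
  rw [h.rank] at h1
  rcases (Nat.prime_mul_iff.1 (h1 ▸ (by norm_num : Nat.Prime 23))) with c | c
  · exfalso
    obtain ⟨v, hv⟩ := exists_ne (0 : V)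
    have h2 := (finrank_eq_one_iff_of_nonzero' v hv).1 c.2
    obtain ⟨g, hg⟩ := h.exists_not_par hv v
    obtain ⟨a, ha⟩ := h2 (ρ g v)
    have h3 : ∀ x, ρ g x = a.1 x := by
      intro x
      obtain ⟨b, rfl⟩ := h2 x
      change ρ g (b.1 v) = a.1 (b.1 v)
      rw [← (hD _).1 b.2, ← ha, hcomm]
      rfl
    have h4 : (a - 1) * (a + 1) = 0 := by
      have : a * a = 1 := by
        refine Subtype.ext (LinearMap.ext fun x => sub_eq_zero.1 (hβ.nondeg.1 _ fun y => ?_))
        change β (a.1 (a.1 x) - x) y = 0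
        rw [map_sub, LinearMap.sub_apply, h.selfadj hβ hi a.1 ((hD _).1 a.2), ← h3, ← h3, hi, sub_self]
      rw [mul_add, sub_mul, this]; simp
    rcases mul_eq_zero.1 h4 with e | e
    · exact hg 1 (by rw [h3, sub_eq_zero.1 e]; simp)
    · exact hg (-1) (by rw [h3, eq_neg_of_add_eq_zero_left e]; simp)
  · obtain ⟨e, he⟩ := (finrank_eq_one_iff_of_nonzero' (1 : D) one_ne_zero).1 c.2 ⟨φ, (hD _).2 hφ⟩
    exact ⟨e, (congrArg Subtype.val he).symm⟩

theorem schur [Fintype G] (x y w : V) :
    ∑ g, β (ρ g⁻¹ w) y • ρ g x = ((Fintype.card G : ℚ) / 23 * β x y) • w := by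
  have := h.fin
  let E : End ℚ V := (β.flip y).smulRight x
  let φ : End ℚ V := ∑ g, ρ g * E * ρ g⁻¹
  have hφ : ∀ w, φ w = ∑ g, β (ρ g⁻¹ w) y • ρ g x := fun w => by simp [φ, E, LinearMap.sum_apply]
  obtain ⟨c, hc⟩ := h.scalar hβ hi φ fun k z => by
    rw [hφ, hφ, map_sum]
    refine Fintype.sum_equiv (Equiv.mulLeft k⁻¹) _ _ fun g => ?_
    rw [Equiv.coe_mulLeft, map_smul, mul_inv_rev, inv_inv, app_mul, app_mul, app_inv']
  have h1 := congrArg (LinearMap.trace ℚ V) hc
  have h2 : ∀ g, LinearMap.trace ℚ V (ρ g * E * ρ g⁻¹) = β x y := by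
    intro g
    rw [LinearMap.trace_mul_comm, ← mul_assoc, ← map_mul, inv_mul_cancel, map_one, one_mul,
      LinearMap.trace_smulRight]
    rfl
  rw [map_sum, Finset.sum_congr rfl fun g _ => h2 g, map_smul, LinearMap.trace_one, h.rank] at h1
  rw [← hφ, hc]
  simp only [Finset.sum_const, Finset.card_univ, nsmul_eq_mul, smul_eq_mul, Nat.cast_ofNat] at h1
  have : c = (Fintype.card G : ℚ) / 23 * β x y := by linarith
  rw [this]; rfl

end Irr

end H16.Q23
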