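import Mathlib
import Cfsg.Agent.Lib.Q23.Rep

/-!
# Invariant forms modulo a small prime on a lattice of rank 22 with an automorphism of order 23
-/

set_option autoImplicit false

namespace H16.Q23

open Module TensorProduct

theorem pow_ne : ∀ l < 22, 2 ≤ l → ∀ m < 11, 0 < m → l ^ (22 - 2 * m) % 23 ≠ 1 := by decide

theorem mod_field {K U : Type*} [Field K] [Finite K] [AddCommGroup U] [Module K U]
    (hU : finrank K U = 22) (hK : Nat.card K < 22) (h23 : (23 : K) ≠ 0)
    (B : LinearMap.BilinForm K U) (hs : ∀ x y, B x y = B y x) (t : End K U)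
    (hi : ∀ x y, B (t x) (t y) = B x y) (hN : ∑ i ∈ Finset.range 23, t ^ i = 0) :
    B = 0 ∨ LinearMap.ker B = ⊥ := by
  have : FiniteDimensional K U := Module.finite_of_finrank_pos (by rw [hU]; norm_num)
  have h1 : t ^ 23 = 1 := by
    have := geom_sum_mul t 23
    rw [hN, zero_mul] at this
    exact sub_eq_zero.1 this.symm
  have hip : ∀ n x y, B ((t ^ n) x) ((t ^ n) y) = B x y := by
    intro n
    induction n with
    | zero => simp
    | succ n ih => intro x y; rw [pow_succ', End.mul_apply, End.mul_apply, hi, ih]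
  have h2 : ∀ x, t x = x → x = 0 := by
    intro x hx
    have := LinearMap.congr_fun hN x
    have e : ∀ n, (t ^ n) x = x := fun n => by
      rw [End.pow_apply]; exact Function.iterate_fixed hx n
    simp only [LinearMap.sum_apply, e, Finset.sum_const, Finset.card_range, LinearMap.zero_apply] at this
    rw [← Nat.cast_smul_eq_nsmul K] at this
    exact (smul_eq_zero.1 this).resolve_left (by exact_mod_cast h23)
  have h3 : Function.Surjective (t - t ^ 22 : End K U) := by
    rw [← LinearMap.injective_iff_surjective, injective_iff_map_eq_zero]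
    intro x hx
    have e1 : (t ^ 2) x = x := by
      have := congrArg t (sub_eq_zero.1 (show t x - (t ^ 22) x = 0 from hx))
      rw [← End.mul_apply, ← End.mul_apply, ← pow_succ', h1] at this
      rw [sq]; exact this
    apply h2
    have e2 : ((t ^ 2) ^ 12) x = x := by rw [End.pow_apply]; exact Function.iterate_fixed e1 12
    rwa [← pow_mul, show 2 * 12 = 23 + 1 by rfl, pow_succ, h1, one_mul] at e2
  obtain ⟨m, hm⟩ := alt_radical (B.compRight (t - t ^ 22)) fun x => by
    have := hip 22 x (t x)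
    rw [← End.mul_apply, ← pow_succ, h1, End.one_apply] at this
    simp only [LinearMap.BilinForm.compRight_apply, LinearMap.sub_apply, map_sub]
    rw [← this, hs, sub_self]
  have h4 : LinearMap.ker (B.compRight (t - t ^ 22)) = LinearMap.ker B := by
    ext x
    simp only [LinearMap.mem_ker, LinearMap.ext_iff, LinearMap.BilinForm.compRight_apply,
      LinearMap.zero_apply]
    refine ⟨fun c y => ?_, fun c y => c _⟩
    obtain ⟨z, rfl⟩ := h3 y
    exact c z
  rw [h4, hU] at hm
  have h5 : ∀ x ∈ LinearMap.ker B, t x ∈ LinearMap.ker B := by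
    intro x hx
    refine LinearMap.ext fun y => ?_
    have := hi x ((t ^ 22) y)
    rw [← End.mul_apply, ← pow_succ', h1, LinearMap.mem_ker.1 hx] at this
    exact this
  classical
  have : Finite U := Module.finite_of_finite K
  have := Fintype.ofFinite (LinearMap.ker B)
  have : Fact (Nat.Prime 23) := ⟨by norm_num⟩
  let f : Function.End (LinearMap.ker B) := fun x => ⟨t x, h5 x x.2⟩
  have hf : ∀ n x, ((f ^ n) x : U) = (t ^ n) x := by
    intro n
    induction n with
    | zero => intro x; rfl
    | succ n ih => intro x; rw [pow_succ', pow_succ', End.mul_apply, ← ih]; rfl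
  have h6 := Equiv.Perm.card_fixedPoints_modEq (f := f) (p := 23) (n := 1) (by
    funext x
    apply Subtype.ext
    rw [pow_one, hf, h1]; rfl)
  have h7 : Fintype.card (Function.fixedPoints f) = 1 := by
    rw [Fintype.card_eq_one_iff]
    refine ⟨⟨0, Subtype.ext (map_zero t)⟩, fun y => Subtype.ext (Subtype.ext (h2 _ ?_))⟩
    exact congrArg Subtype.val y.2
  rw [h7, ← Nat.card_eq_fintype_card, Module.natCard_eq_pow_finrank (K := K)] at h6
  have h8 : 2 ≤ Nat.card K := Finite.one_lt_card
  rcases Nat.eq_zero_or_pos m with c | c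
  · left
    have : LinearMap.ker B = ⊤ := Submodule.eq_top_of_finrank_eq (by omega)
    exact LinearMap.ker_eq_top.1 this
  · right
    by_contra e
    have e1 : finrank K (LinearMap.ker B) ≠ 0 := fun c => e (Submodule.finrank_eq_zero.1 c)
    refine pow_ne _ hK h8 m (by omega) c ?_
    rw [show 22 - 2 * m = finrank K (LinearMap.ker B) by omega]
    exact h6

theorem mod_lattice {M : Type*} [AddCommGroup M] [Module.Free ℤ M] [Module.Finite ℤ M]
    (hM : finrank ℤ M = 22) (l : ℕ) (hl : l.Prime) (hl' : l < 22)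
    (γ : LinearMap.BilinForm ℤ M) (hs : ∀ x y, γ x y = γ y x) (s : End ℤ M)
    (hi : ∀ x y, γ (s x) (s y) = γ x y) (hN : ∑ i ∈ Finset.range 23, s ^ i = 0) :
    (∀ x y, (l : ℤ) ∣ γ x y) ∨ ∀ x, (∀ y, (l : ℤ) ∣ γ x y) → ∃ z, x = (l : ℤ) • z := by
  have : Fact l.Prime := ⟨hl⟩
  have hsur := TensorProduct.mk_surjective ℤ M (ZMod l) (ZMod.ringHom_surjective _)
  have hB : ∀ x y : M, γ.baseChange (ZMod l) (1 ⊗ₜ x) (1 ⊗ₜ y) = (γ x y : ZMod l) := by
    intro x y; simp
  rcases mod_field (K := ZMod l) (U := ZMod l ⊗[ℤ] M) (by rw [Module.finrank_baseChange, hM])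
    (by simpa using hl') (by
      intro c
      have := (ZMod.natCast_eq_zero_iff 23 l).1 (by exact_mod_cast c)
      have := (Nat.prime_dvd_prime_iff_eq hl (by norm_num)).1 this
      omega) (γ.baseChange (ZMod l)) (fun x y => by
      obtain ⟨x, rfl⟩ := hsur x
      obtain ⟨y, rfl⟩ := hsur y
      simp only [TensorProduct.mk_apply, hB, hs x y]) (s.baseChange (ZMod l)) (fun x y => by
      obtain ⟨x, rfl⟩ := hsur x
      obtain ⟨y, rfl⟩ := hsur y
      simp only [TensorProduct.mk_apply, LinearMap.baseChange_tmul, hB, hi]) (by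
      have := congrArg (Module.End.baseChangeHom ℤ (ZMod l) M) hN
      rw [map_sum, map_zero] at this
      simp only [map_pow] at this
      exact this) with c | c
  · left
    intro x y
    rw [← ZMod.intCast_zmod_eq_zero_iff_dvd, ← hB, c]; rfl
  · right
    intro x hx
    have h1 : (1 : ZMod l) ⊗ₜ[ℤ] x ∈ LinearMap.ker (γ.baseChange (ZMod l)) := by
      refine LinearMap.ext fun y => ?_
      obtain ⟨y, rfl⟩ := hsur y
      rw [TensorProduct.mk_apply, hB, (ZMod.intCast_zmod_eq_zero_iff_dvd _ _).2 (hx y)]; rfl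
    rw [c, Submodule.mem_bot] at h1
    let b := Module.finBasisOfFinrankEq ℤ M hM
    have h2 : ∀ i, (l : ℤ) ∣ b.repr x i := by
      intro i
      have := b.baseChange_repr_tmul (ZMod l) 1 x i
      rw [h1, map_zero, Finsupp.zero_apply, zsmul_one] at this
      exact (ZMod.intCast_zmod_eq_zero_iff_dvd _ _).1 this.symm
    choose c hc using h2
    refine ⟨∑ i, c i • b i, ?_⟩
    conv_lhs => rw [← b.sum_repr x]
    simp only [hc, Finset.smul_sum, smul_smul]

variable {V : Type*} [AddCommGroup V] [Module ℚ V]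

theorem finrank_lattice (L : Submodule ℤ V) [L.IsLattice ℚ] : finrank ℤ L = finrank ℚ V := by
  rw [finrank, finrank, Submodule.IsLattice.rank' ℚ L]

/-- coordinates with respect to a basis of a lattice -/
theorem exists_coord {β : LinearMap.BilinForm ℚ V} (hβ : PD β) (L : Submodule ℤ V) [L.IsLattice ℚ]
    {n : ℕ} (hn : finrank ℚ V = n) :
    ∃ (b : Basis (Fin n) ℤ L) (d : Fin n → V), (∀ i, ∀ z : L, β (d i) z = b.repr z i) ∧
      ∀ z, z = ∑ i, β (d i) z • (b i : V) := by
  let b := Module.finBasisOfFinrankEq ℤ L ((finrank_lattice L).trans hn)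
  let B := b.extendOfIsLattice ℚ
  have hB : ∀ i, B i = b i := fun i => b.extendOfIsLattice_apply ℚ i
  have h1 := LinearMap.BilinForm.apply_dualBasis_left hβ.nondeg B
  refine ⟨b, β.dualBasis hβ.nondeg B, fun i z => ?_, fun z => ?_⟩
  · conv_lhs => rw [← b.sum_repr z]
    simp only [Submodule.coe_sum, Submodule.coe_smul, map_sum, map_zsmul, ← hB, h1]
    simp
  · have h2 : ∀ i, β (β.dualBasis hβ.nondeg B i) z = B.repr z i := by
      intro i
      conv_lhs => rw [← B.sum_repr z]
      simp only [map_sum, map_smul, h1]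
      simp
    simp only [h2, ← hB, B.sum_repr]

theorem mod_space {β : LinearMap.BilinForm ℚ V} (hβ : PD β) (hV : finrank ℚ V = 22)
    (M : Submodule ℤ V) [M.IsLattice ℚ] (hM : ∀ x ∈ M, ∀ y ∈ M, I (β x y)) (s : End ℚ V)
    (hsM : ∀ x ∈ M, s x ∈ M) (hi : ∀ x y, β (s x) (s y) = β x y)
    (hN : ∑ i ∈ Finset.range 23, s ^ i = 0) (l : ℕ) (hl : l.Prime) (hl' : l < 22) :
    (∀ x ∈ M, ∀ y ∈ M, I (β x y / l)) ∨
      ∀ x ∈ M, (∀ y ∈ M, I (β x y / l)) → (l : ℚ)⁻¹ • x ∈ M := by
  obtain ⟨γ, hγ⟩ := exists_intForm β M hM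
  have hl0 : (l : ℤ) ≠ 0 := by exact_mod_cast hl.ne_zero
  have hd : ∀ x y : M, I (β x y / l) ↔ (l : ℤ) ∣ γ x y := fun x y => by
    rw [← I.div_iff hl0, hγ]; rfl
  let s' : End ℤ M := (s.restrictScalars ℤ).restrict hsM
  have hs' : ∀ n (x : M), ((s' ^ n) x : V) = (s ^ n) x := by
    intro n
    induction n with
    | zero => intro x; rfl
    | succ n ih => intro x; rw [pow_succ', pow_succ', End.mul_apply, End.mul_apply, ← ih]; rfl
  rcases mod_lattice ((finrank_lattice M).trans hV) l hl hl' γ (fun x y => by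
      have := hβ.symm x y
      rw [← hγ, ← hγ] at this
      exact_mod_cast this) s' (fun x y => by
      have : β (s' x) (s' y) = β x y := hi x y
      rw [← hγ, ← hγ] at this
      exact_mod_cast this) (by
      refine LinearMap.ext fun x => Subtype.ext ?_
      have := LinearMap.congr_fun hN x
      simp only [LinearMap.sum_apply, Submodule.coe_sum, hs'] at this ⊢
      exact this) with c | c
  · exact .inl fun x hx y hy => (hd ⟨x, hx⟩ ⟨y, hy⟩).2 (c _ _)
  · refine .inr fun x hx h => ?_
    obtain ⟨z, hz⟩ := c ⟨x, hx⟩ fun y => (hd _ _).1 (h y y.2)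
    have : x = (l : ℚ) • (z : V) := by
      rw [← Int.cast_natCast, zsmul_eq]; exact congrArg Subtype.val hz
    rw [this, smul_smul, inv_mul_cancel₀ (by exact_mod_cast hl.ne_zero), one_smul]
    exact z.2

end H16.Q23
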