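import Mathlib
import Cfsg.Agent.Lib.Q23.Mod

/-!
# Rational representations of degree 23: choice of a good invariant lattice
-/

set_option autoImplicit false

namespace H16.Q23

open Module

variable {V : Type*} [AddCommGroup V] [Module ℚ V] {G : Type*} [Group G]

/-- invariant integral lattice -/
structure Pair (ρ : Representation ℚ G V) (β : LinearMap.BilinForm ℚ V) (L : Submodule ℤ V) : Prop where
  pd : PD β
  inv : ∀ g x y, β (ρ g x) (ρ g y) = β x y
  lat : L.IsLattice ℚ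
  stab : ∀ g, ∀ x ∈ L, ρ g x ∈ L
  int : ∀ x ∈ L, ∀ y ∈ L, I (β x y)

/-- an element of order 23 with a one-dimensional fixed space -/
structure Fix (ρ : Representation ℚ G V) (σ : G) (v : V) : Prop where
  ord : orderOf σ = 23
  ne : v ≠ 0
  fixv : ρ σ v = v
  only : ∀ x, ρ σ x = x → ∃ c : ℚ, x = c • v

theorem fix_pow (ρ : Representation ℚ G V) {g : G} {x : V} (h : ρ g x = x) (n : ℕ) : ρ (g ^ n) x = x := by
  induction n with
  | zero => rw [pow_zero, app_one]
  | succ n ih => rw [pow_succ, app_mul, h, ih]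

theorem exists_pair [Finite G] [FiniteDimensional ℚ V] (ρ : Representation ℚ G V) :
    ∃ β L, Pair ρ β L := by
  classical
  have := Fintype.ofFinite G
  let b := Module.finBasis ℚ V
  let β0 : LinearMap.BilinForm ℚ V :=
    ∑ g, ∑ i, (LinearMap.mul ℚ ℚ).compl₁₂ (b.coord i ∘ₗ ρ g) (b.coord i ∘ₗ ρ g)
  have h0 : ∀ x y, β0 x y = ∑ g, ∑ i, b.repr (ρ g x) i * b.repr (ρ g y) i := by
    intro x y; simp [β0, LinearMap.sum_apply]
  let S : Set V := Set.range fun p : G × Fin (finrank ℚ V) => ρ p.1 (b p.2)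
  let n : ℕ := ∏ p : (G × Fin (finrank ℚ V)) × (G × Fin (finrank ℚ V)),
    (β0 (ρ p.1.1 (b p.1.2)) (ρ p.2.1 (b p.2.2))).den
  have hn : 0 < n := Finset.prod_pos fun p _ => Rat.den_pos _
  refine ⟨(n : ℚ) • β0, Submodule.span ℤ S, ⟨⟨fun x y => ?_, fun x hx => ?_⟩, fun g x y => ?_,
    ⟨Submodule.fg_span (Set.finite_range _), ?_⟩, fun g x hx => ?_, fun x hx y hy => ?_⟩⟩
  · simp only [LinearMap.smul_apply, h0, mul_comm]
  · simp only [LinearMap.smul_apply, h0, smul_eq_mul]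
    refine mul_pos (by exact_mod_cast hn) (Finset.sum_pos' (fun g _ => Finset.sum_nonneg fun i _ =>
      mul_self_nonneg _) ⟨1, Finset.mem_univ _, ?_⟩)
    obtain ⟨i, hi⟩ : ∃ i, b.repr x i ≠ 0 := by
      by_contra c
      push Not at c
      exact hx (b.ext_elem fun i => by simp [c])
    exact Finset.sum_pos' (fun i _ => mul_self_nonneg _)
      ⟨i, Finset.mem_univ _, by rw [app_one]; exact mul_self_pos.2 hi⟩
  · simp only [LinearMap.smul_apply, h0]
    congr 1
    exact Fintype.sum_equiv (Equiv.mulRight g) _ _ fun k => by simp only [Equiv.coe_mulRight, app_mul]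
  · rw [Submodule.span_span_of_tower, eq_top_iff, ← b.span_eq]
    refine Submodule.span_mono ?_
    rintro _ ⟨i, rfl⟩
    exact ⟨(1, i), app_one ρ _⟩
  · induction hx using Submodule.span_induction with
    | mem x hx =>
      obtain ⟨p, rfl⟩ := hx
      exact Submodule.subset_span ⟨(g * p.1, p.2), app_mul ρ _ _ _⟩
    | zero => simp
    | add x y _ _ hx hy => rw [map_add]; exact Submodule.add_mem _ hx hy
    | smul c x _ hx => rw [map_zsmul]; exact Submodule.smul_mem _ c hx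
  · induction hx using Submodule.span_induction with
    | mem x hx =>
      induction hy using Submodule.span_induction with
      | mem y hy =>
        obtain ⟨p, rfl⟩ := hx
        obtain ⟨q, rfl⟩ := hy
        obtain ⟨k, hk⟩ : (β0 (ρ p.1 (b p.2)) (ρ q.1 (b q.2))).den ∣ n :=
          Finset.dvd_prod_of_mem _ (Finset.mem_univ (p, q))
        refine ⟨k * (β0 (ρ p.1 (b p.2)) (ρ q.1 (b q.2))).num, ?_⟩
        simp only [LinearMap.smul_apply, smul_eq_mul]
        rw [hk]; push_cast; rw [← Rat.mul_den_eq_num]; ring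
      | zero => simpa using I.zero
      | add y z _ _ hy hz => rw [map_add]; exact hy.add hz
      | smul c y _ hy => rw [map_zsmul, zsmul_eq_mul]; exact (I.int c).mul hy
    | zero => simpa using I.zero
    | add x z _ _ hx hz => rw [map_add, LinearMap.add_apply]; exact hx.add hz
    | smul c x _ hx => rw [map_zsmul, LinearMap.smul_apply, zsmul_eq_mul]; exact (I.int c).mul hx

namespace Fix

variable {ρ : Representation ℚ G V} {σ : G} {v : V} (hf : Fix ρ σ v)
include hf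

theorem pow23 : σ ^ 23 = 1 := by rw [← hf.ord, pow_orderOf_eq_one]

theorem pow {a : ℕ} (h0 : 0 < a) (ha : a < 23) : Fix ρ (σ ^ a) v := by
  have hc : a.Coprime (orderOf σ) := by
    rw [hf.ord]; exact (Nat.coprime_of_lt_prime h0.ne' ha (by norm_num)).symm
  refine ⟨by rw [hc.symm.orderOf_pow, hf.ord], hf.ne, fix_pow ρ hf.fixv a, fun x hx => hf.only x ?_⟩
  obtain ⟨m, hm⟩ := exists_pow_eq_self_of_coprime hc
  rw [← hm]; exact fix_pow ρ hx m

theorem smul {c : ℚ} (hc : c ≠ 0) : Fix ρ σ (c • v) :=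
  ⟨hf.ord, smul_ne_zero hc hf.ne, by rw [map_smul, hf.fixv], fun x hx => by
    obtain ⟨a, rfl⟩ := hf.only x hx
    exact ⟨a / c, by rw [smul_smul, div_mul_cancel₀ _ hc]⟩⟩

variable {β : LinearMap.BilinForm ℚ V} (hβ : PD β) (hi : ∀ g x y, β (ρ g x) (ρ g y) = β x y)
include hi

omit hβ in
theorem ip_pow (n : ℕ) (x : V) : β (ρ (σ ^ n) x) v = β x v := by
  conv_lhs => rw [← fix_pow ρ hf.fixv n, hi]

include hβ

theorem norm_map (x : V) :
    ∑ i ∈ Finset.range 23, ρ (σ ^ i) x = (23 * β x v / β v v) • v := by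
  obtain ⟨c, hc⟩ := hf.only (∑ i ∈ Finset.range 23, ρ (σ ^ i) x) (by
    rw [map_sum]
    simp only [← app_mul, ← pow_succ']
    have h1 := Finset.sum_range_succ (fun i => ρ (σ ^ i) x) 23
    rw [Finset.sum_range_succ', hf.pow23, pow_zero] at h1
    exact add_right_cancel h1)
  have h1 := congrArg (fun z => β z v) hc
  simp only [map_sum, LinearMap.sum_apply, hf.ip_pow hi, Finset.sum_const, Finset.card_range, map_smul,
    LinearMap.smul_apply, nsmul_eq_mul, smul_eq_mul, Nat.cast_ofNat] at h1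
  rw [hc, h1, mul_div_cancel_right₀ _ (hβ.pos v hf.ne).ne']

end Fix

namespace Irr

variable {ρ : Representation ℚ G V} (h : Irr ρ) [Finite G]
include h

omit [Finite G] in
theorem pow23 (g : G) (hg : g ^ 23 ^ 2 = 1) : ρ g ^ 23 = 1 := by
  have := h.fin
  have : Fact (Nat.Prime 23) := ⟨by norm_num⟩
  by_contra c
  have := tot_le (ρ g) 23 1 (by rw [← map_pow, hg, map_one]) (by simpa using c)
  rw [h.rank] at this
  omega

variable (hρ : ∀ g, ρ g = 1 → g = 1)
include hρ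

theorem not_sq_dvd : ¬ 23 ^ 2 ∣ Nat.card G := by
  intro c
  have : Fact (Nat.Prime 23) := ⟨by norm_num⟩
  obtain ⟨K, hK⟩ := Sylow.exists_subgroup_card_pow_prime 23 c
  have := card_mul_fix (ρ.comp K.subtype) h.rank (fun g => h.pow23 g (by
    rw [← hK]; exact congrArg Subtype.val (pow_card_eq_one' (x := g)))) fun g hg => Subtype.ext (hρ g hg)
  rw [hK] at this
  omega

theorem prime_le {l : ℕ} (hl : l.Prime) (hd : l ∣ Nat.card G) : l ≤ 24 := by
  have := h.fin
  have : Fact l.Prime := ⟨hl⟩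
  obtain ⟨g, hg⟩ := exists_prime_orderOf_dvd_card' l hd
  have := tot_le (ρ g) l 0 (by rw [← map_pow, zero_add, pow_one, ← hg, pow_orderOf_eq_one, map_one])
    (by
      intro c
      rw [hρ g (by simpa using c), orderOf_one] at hg
      exact hl.ne_one hg.symm)
  rw [h.rank, pow_zero, one_mul] at this
  omega

theorem exists_fix (hd : 23 ∣ Nat.card G) : ∃ σ v, Fix ρ σ v := by
  have : Fact (Nat.Prime 23) := ⟨by norm_num⟩
  obtain ⟨σ, hσ⟩ := exists_prime_orderOf_dvd_card' 23 hd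
  have hK : Nat.card (Subgroup.zpowers σ) = 23 := by rw [Nat.card_zpowers, hσ]
  have h1 := card_mul_fix (ρ.comp (Subgroup.zpowers σ).subtype) h.rank (fun g => h.pow23 g (by
    have := congrArg Subtype.val (pow_card_eq_one' (x := g))
    rw [hK] at this
    rw [sq, pow_mul, show (g : G) ^ 23 = 1 from this, one_pow])) fun g hg => Subtype.ext (hρ g hg)
  rw [hK] at h1
  obtain ⟨v, hv, h2⟩ := finrank_eq_one_iff'.1 (show finrank ℚ
    (Representation.invariants (ρ.comp (Subgroup.zpowers σ).subtype)) = 1 by omega)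
  refine ⟨σ, v, hσ, fun c => hv (Subtype.ext c), v.2 ⟨σ, Subgroup.mem_zpowers σ⟩, fun x hx => ?_⟩
  obtain ⟨c, hc⟩ := h2 ⟨x, fun g => by
    obtain ⟨n, hn⟩ := (mem_powers_iff_mem_zpowers).2 g.2
    change ρ g x = x
    rw [← hn]; exact fix_pow ρ hx n⟩
  exact ⟨c, (congrArg Subtype.val hc).symm⟩

omit hρ

variable {β : LinearMap.BilinForm ℚ V} {L : Submodule ℤ V} (hp : Pair ρ β L)
include hp

theorem dvd_card : 23 ∣ Nat.card G := by
  have := Fintype.ofFinite G
  have := hp.lat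
  obtain ⟨b, d, h1, -⟩ := exists_coord hp.pd L h.rank
  have h2 := congrArg (β (d 0)) (h.schur hp.pd hp.inv (b 0) (d 0) (b 0))
  have h3 : ∀ z ∈ L, I (β (d 0) z) := fun z hz => ⟨_, h1 0 ⟨z, hz⟩⟩
  have h4 : I (β (d 0) (∑ g, β (ρ g⁻¹ (b 0)) (d 0) • ρ g (b 0))) :=
    h3 _ (L.sum_mem fun g _ => I.smul_mem (by
      rw [hp.pd.symm]; exact h3 _ (hp.stab _ _ (b 0).2)) (hp.stab _ _ (b 0).2))
  rw [h2, map_smul, hp.pd.symm (b 0), h1] at h4
  simp only [Basis.repr_self, Finsupp.single_eq_same, Int.cast_one, mul_one, smul_eq_mul] at h4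
  have := (I.div_iff (a := Fintype.card G) (b := 23) (by norm_num)).1 (h4.of_eq (by simp))
  rw [Nat.card_eq_fintype_card]
  exact_mod_cast this

theorem irr_mod {c l : ℕ} (hc : Nat.card G = 23 * c) (hl : l.Prime) (hlc : ¬ l ∣ c) {w y : V}
    (hw : w ∈ L) (hy : y ∈ L) (hwy : ¬ I (β w y / l)) {x : V} (hx : x ∈ L)
    (hx' : ∀ z ∈ L, I (β x z / l)) : (l : ℚ)⁻¹ • x ∈ L := by
  have := Fintype.ofFinite G
  have := hp.lat
  have hl0 : (l : ℤ) ≠ 0 := by exact_mod_cast hl.ne_zero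
  obtain ⟨b, d, h1, h2⟩ := exists_coord hp.pd L h.rank
  rw [h2 ((l : ℚ)⁻¹ • x)]
  refine L.sum_mem fun i _ => I.smul_mem ?_ (b i).2
  have h3 := congrArg (fun z => β z y / l) (h.schur hp.pd hp.inv x (d i) w)
  have h4 : I (β (∑ g, β (ρ g⁻¹ w) (d i) • ρ g x) y / l) := by
    simp only [map_sum, LinearMap.sum_apply, map_smul, LinearMap.smul_apply, smul_eq_mul, Finset.sum_div,
      mul_div_assoc]
    refine I.sum _ fun g _ => I.mul ?_ ?_
    · rw [hp.pd.symm]; exact ⟨_, h1 i ⟨_, hp.stab _ _ hw⟩⟩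
    · rw [← hp.inv g⁻¹, app_inv]; exact hx' _ (hp.stab _ _ hy)
  obtain ⟨n, hn⟩ := hp.int w hw y hy
  have h5 := h1 i ⟨x, hx⟩
  simp only at h5
  rw [h3, ← Nat.card_eq_fintype_card, hc, map_smul, LinearMap.smul_apply, hp.pd.symm x, h5, hn] at h4
  rw [hn] at hwy
  have h6 : (l : ℤ) ∣ c * b.repr ⟨x, hx⟩ i * n :=
    (I.div_iff hl0).1 (h4.of_eq (by push_cast; rw [smul_eq_mul]; field_simp))
  have hp' : Prime (l : ℤ) := Nat.prime_iff_prime_int.1 hl
  rcases hp'.dvd_or_dvd h6 with e | e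
  · rcases hp'.dvd_or_dvd e with e | e
    · exact absurd (Int.natCast_dvd_natCast.1 e) hlc
    · rw [map_smul, h5, smul_eq_mul, inv_mul_eq_div]
      exact (I.div_iff hl0).2 e
  · exact absurd ((I.div_iff hl0).2 e) hwy

end Irr

namespace Pair

variable {ρ : Representation ℚ G V} {β : LinearMap.BilinForm ℚ V} {L : Submodule ℤ V} (hp : Pair ρ β L)
include hp

theorem shrink (l : ℕ) (hl : 0 < l) :
    ∃ L', Pair ρ ((l : ℚ)⁻¹ • β) L' ∧ ∀ x, x ∈ L' ↔ x ∈ L ∧ ∀ y ∈ L, I (β x y / l) := by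
  have hl0 : (l : ℚ) ≠ 0 := by exact_mod_cast hl.ne'
  let L' : Submodule ℤ V :=
    { carrier := {x | x ∈ L ∧ ∀ y ∈ L, I (β x y / l)}
      zero_mem' := ⟨L.zero_mem, fun y _ => by simpa using I.zero⟩
      add_mem' := fun {a b} ha hb => ⟨L.add_mem ha.1 hb.1, fun y hy =>
        ((ha.2 y hy).add (hb.2 y hy)).of_eq (by simp [add_div])⟩
      smul_mem' := fun n a ha => ⟨L.smul_mem n ha.1, fun y hy =>
        ((I.int n).mul (ha.2 y hy)).of_eq (by simp [mul_div_assoc])⟩ }
  have := hp.lat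
  refine ⟨L', ⟨⟨fun x y => by simp [hp.pd.symm x y], fun x hx => ?_⟩, fun g x y => by simp [hp.inv],
    isLattice_of L L' (fg_of_le hp.lat.fg fun x hx => hx.1) fun x hx => ⟨l, hl0, (I.nat l).smul_mem hx,
      fun y hy => (hp.int x hx y hy).of_eq (by simp [mul_div_cancel_left₀ _ hl0])⟩,
    fun g x hx => ⟨hp.stab g x hx.1, fun y hy => ?_⟩, fun x hx y hy => ?_⟩, fun x => Iff.rfl⟩
  · exact mul_pos (inv_pos.2 (by exact_mod_cast hl)) (hp.pd.pos x hx)
  · rw [← hp.inv g⁻¹, app_inv]; exact hx.2 _ (hp.stab _ _ hy)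
  · exact (hx.2 y hy.1).of_eq (by simp [inv_mul_eq_div])

variable {σ : G} {v : V} (hf : Fix ρ σ v)
include hf

theorem sub_norm {y : V} (hy : y ∈ L) : ∃ z ∈ L, β z v = 0 ∧ ∃ c : ℚ, (23 : ℚ) • y = z + c • v := by
  refine ⟨(23 : ℚ) • y - ∑ i ∈ Finset.range 23, ρ (σ ^ i) y,
    L.sub_mem (I.smul_mem ⟨23, rfl⟩ hy) (L.sum_mem fun i _ => hp.stab _ _ hy), ?_, _,
    by rw [← hf.norm_map hp.pd hp.inv y, sub_add_cancel]⟩
  simp [LinearMap.sum_apply, hf.ip_pow hp.inv, -map_pow]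

theorem mod_small (hV : finrank ℚ V = 23) (l : ℕ) (hl : l.Prime) (hl' : l < 22) :
    (∀ x ∈ L, β x v = 0 → ∀ y ∈ L, I (β x y / l)) ∨
      ∀ x ∈ L, β x v = 0 → (∀ y ∈ L, I (β x y / l)) → (l : ℚ)⁻¹ • x ∈ L := by
  have : FiniteDimensional ℚ V := Module.finite_of_finrank_pos (by rw [hV]; norm_num)
  have := hp.lat
  let W := LinearMap.ker (β.flip v)
  have hW : finrank ℚ W = 22 := by
    have h1 := LinearMap.finrank_range_add_finrank_ker (β.flip v)
    have h2 : LinearMap.range (β.flip v) = ⊤ := by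
      rw [LinearMap.range_eq_top]
      intro q
      exact ⟨(q / β v v) • v, by simp [(hp.pd.pos v hf.ne).ne']⟩
    rw [h2, finrank_top, finrank_self, hV] at h1
    change 1 + finrank ℚ W = 23 at h1
    omega
  let M : Submodule ℤ W := L.comap (W.subtype.restrictScalars ℤ)
  have : M.IsLattice ℚ := by
    refine ⟨?_, eq_top_iff.2 fun x _ => ?_⟩
    · refine Submodule.fg_of_fg_map_injective (W.subtype.restrictScalars ℤ) W.injective_subtype ?_
      exact fg_of_le hp.lat.fg (Submodule.map_comap_le _ _)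
    · obtain ⟨n, hn, hx⟩ := exists_smul_mem L (x : V)
      have hn0 : (n : ℚ) ≠ 0 := by exact_mod_cast hn.ne'
      have := Submodule.smul_mem _ (n : ℚ)⁻¹
        (Submodule.subset_span (R := ℚ) (s := (M : Set W)) (show (n : ℚ) • x ∈ M from hx))
      rwa [smul_smul, inv_mul_cancel₀ hn0, one_smul] at this
  have hs : ∀ x ∈ W, ρ σ x ∈ W := fun x hx => by
    have := hf.ip_pow hp.inv 1 x
    rw [pow_one] at this
    exact this.trans hx
  have hs' : ∀ n (x : W), ((((ρ σ).restrict hs : End ℚ W) ^ n) x : V) = ρ (σ ^ n) x := by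
    intro n
    induction n with
    | zero => intro x; simp
    | succ n ih => intro x; rw [pow_succ', pow_succ', End.mul_apply, app_mul, ← ih]; rfl
  rcases mod_space (β := β.restrict W) ⟨fun x y => hp.pd.symm _ _, fun x hx =>
      hp.pd.pos _ fun c => hx (Subtype.ext c)⟩ hW M (fun x hx y hy => hp.int _ hx _ hy)
      ((ρ σ).restrict hs) (fun x hx => hp.stab σ _ hx) (fun x y => hp.inv σ _ _) (by
        refine LinearMap.ext fun x => Subtype.ext ?_
        have := hf.norm_map hp.pd hp.inv x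
        rw [show β x v = 0 from x.2] at this
        simp only [LinearMap.sum_apply, Submodule.coe_sum, hs', this]
        simp) l hl hl' with c | c
  · refine .inl fun x hx hxv y hy => ?_
    obtain ⟨z, hz, hzv, e, he⟩ := hp.sub_norm hf hy
    have h1 : I (β x z / l) := c ⟨x, hxv⟩ hx ⟨z, hzv⟩ hz
    have h2 := congrArg (β x) he
    simp only [map_smul, map_add, hxv, smul_eq_mul, mul_zero, add_zero] at h2
    refine I.of_coprime (a := 23) (b := l) ?_ (h1.of_eq (by rw [← h2]; push_cast; ring))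
      ((hp.int x hx y hy).of_eq ?_)
    · exact (Nat.isCoprime_iff_coprime (m := 23)).2
        (Nat.coprime_of_lt_prime hl.ne_zero (by omega) (by norm_num))
    · have : (l : ℚ) ≠ 0 := by exact_mod_cast hl.ne_zero
      push_cast; field_simp
  · exact .inr fun x hx hxv hy => c ⟨x, hxv⟩ hx fun y hy' => hy _ hy'

end Pair

theorem Irr.exists_good {ρ : Representation ℚ G V} (h : Irr ρ) [Finite G] (hρ : ∀ g, ρ g = 1 → g = 1) :
    ∃ β L σ v, Pair ρ β L ∧ Fix ρ σ v ∧ (∀ y, (∀ x ∈ L, I (β y x)) → β y v = 0 → y ∈ L) ∧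
      ∀ y, (∀ x ∈ L, I (β y x)) → (23 : ℚ) • y ∈ L → y ∈ L := by
  classical
  have := h.fin
  obtain ⟨β0, L0, hp0⟩ := exists_pair ρ
  obtain ⟨c, hc⟩ := h.dvd_card hp0
  obtain ⟨σ, v, hf⟩ := h.exists_fix hρ ⟨c, hc⟩
  obtain ⟨e, he, hev⟩ : ∃ e ∈ L0, ρ σ e ≠ e := by
    by_contra c
    push Not at c
    obtain ⟨g, hg⟩ := h.exists_not_par hf.ne v
    have := hp0.lat
    obtain ⟨n, hn, hx⟩ := exists_smul_mem L0 (ρ g v)
    obtain ⟨a, ha⟩ := hf.only _ (c _ hx)
    have hn0 : (n : ℚ) ≠ 0 := by exact_mod_cast hn.ne'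
    exact hg ((n : ℚ)⁻¹ * a) (by rw [← smul_smul, ← ha, smul_smul, inv_mul_cancel₀ hn0, one_smul])
  set x0 := ρ σ e - e with hx0
  have hx1 : x0 ≠ 0 := sub_ne_zero.2 hev
  have hex : ∃ n : ℕ, ∃ β L, Pair ρ β L ∧ x0 ∈ L ∧ β x0 x0 = n := by
    have hm : x0 ∈ L0 := L0.sub_mem (hp0.stab _ _ he) he
    obtain ⟨n, hn⟩ := hp0.int x0 hm x0 hm
    have := hp0.pd.nonneg x0
    rw [hn] at this
    lift n to ℕ using by exact_mod_cast this
    exact ⟨n, β0, L0, hp0, hm, by exact_mod_cast hn⟩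
  obtain ⟨β, L, hp, hm, hn⟩ := Nat.find_spec hex
  have hxv : β x0 v = 0 := by
    have := hf.ip_pow hp.inv 1 e
    rw [pow_one] at this
    rw [hx0, map_sub, LinearMap.sub_apply, this, sub_self]
  have h1 : ∀ l : ℕ, l.Prime → ¬ ∀ x ∈ L, β x v = 0 → ∀ y ∈ L, I (β x y / l) := by
    intro l hl c
    obtain ⟨L', hp', hL'⟩ := hp.shrink l hl.pos
    have hm' : x0 ∈ L' := (hL' _).2 ⟨hm, c _ hm hxv⟩
    obtain ⟨n, hn'⟩ := hp'.int x0 hm' x0 hm'
    have h2 := hp'.pd.pos x0 hx1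
    rw [hn'] at h2
    lift n to ℕ using by exact_mod_cast h2.le
    have h3 := Nat.find_min' hex ⟨_, L', hp', hm', by exact_mod_cast hn'⟩
    have hl0 : (l : ℚ) ≠ 0 := by exact_mod_cast hl.ne_zero
    simp only [LinearMap.smul_apply, smul_eq_mul, hn, inv_mul_eq_iff_eq_mul₀ hl0] at hn'
    have h4 : Nat.find hex = l * n := by exact_mod_cast hn'
    have h5 : 0 < n := by exact_mod_cast h2
    have := hl.two_le
    nlinarith
  have h2 : ∀ l : ℕ, l.Prime → ¬ l ∣ c → ∀ x ∈ L, (∀ y ∈ L, I (β x y / l)) → (l : ℚ)⁻¹ • x ∈ L := by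
    intro l hl hlc x hx hx'
    have := h1 l hl
    push Not at this
    obtain ⟨w, hw, -, y, hy, hwy⟩ := this
    exact h.irr_mod hp hc hl hlc hw hy hwy hx hx'
  have h23 : ¬ 23 ∣ c := fun e => h.not_sq_dvd hρ (by rw [hc, sq]; exact Nat.mul_dvd_mul_left _ e)
  have h3 : ∀ l : ℕ, l.Prime → ∀ x ∈ L, β x v = 0 → (∀ y ∈ L, I (β x y / l)) → (l : ℚ)⁻¹ • x ∈ L := by
    intro l hl
    by_cases hlc : l ∣ c
    · have e1 := h.prime_le hρ hl (hc ▸ hlc.mul_left _)
      have e2 : l ≠ 23 := fun e => h23 (e ▸ hlc)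
      have e3 : l ≠ 22 := by rintro rfl; exact absurd hl (by norm_num)
      have e4 : l ≠ 24 := by rintro rfl; exact absurd hl (by norm_num)
      exact (hp.mod_small hf h.rank l hl (by omega)).resolve_left (h1 l hl)
    · exact fun x hx _ => h2 l hl hlc x hx
  refine ⟨β, L, σ, v, hp, hf, fun y hy hyv => ?_, fun y hy hy' => ?_⟩
  · have := hp.lat
    obtain ⟨n, hn, hx⟩ := exists_smul_mem L y
    induction n using Nat.strong_induction_on with
    | _ n ih =>
      rcases Nat.eq_or_lt_of_le (Nat.succ_le_of_lt hn) with e | e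
      · simpa [← e] using hx
      · obtain ⟨l, hl, m, rfl⟩ := Nat.exists_prime_and_dvd e.ne'
        have hl0 : (l : ℚ) ≠ 0 := by exact_mod_cast hl.ne_zero
        have hm : 0 < m := Nat.pos_of_mul_pos_left hn
        refine ih m (by have := hl.two_le; nlinarith) hm ?_
        have := h3 l hl _ hx (by simp [hyv]) fun z hz =>
          ((I.nat m).mul (hy z hz)).of_eq (by simp; field_simp)
        convert this using 1
        rw [smul_smul]; push_cast; rw [inv_mul_cancel_left₀ hl0]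
  · have := h2 23 (by norm_num) h23 _ hy' fun z hz => (hy z hz).of_eq (by simp)
    simpa [smul_smul] using this

end H16.Q23
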