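import Mathlib
import Cfsg.Agent.Lib.Q23.Pair

/-!
# Rational representations of degree 23: the lattice and the vector fixed by an element of order 23
-/

set_option autoImplicit false

namespace H16.Q23

open Module

variable {V : Type*} [AddCommGroup V] [Module ℚ V] {G : Type*} [Group G]

/-- the configuration -/
structure Cfg (ρ : Representation ℚ G V) (β : LinearMap.BilinForm ℚ V) (L : Submodule ℤ V) (σ : G) (v : V)
    (d : ℕ) : Prop where
  irr : Irr ρ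
  pair : Pair ρ β L
  fix : Fix ρ σ v
  mem : v ∈ L
  vv : β v v = 23 * d
  dvd : ∀ x ∈ L, I (β x v / d)
  one : ∃ x ∈ L, β x v = d
  dual0 : ∀ y, (∀ x ∈ L, I (β y x)) → β y v = 0 → y ∈ L
  cop : ¬ 23 ∣ d

theorem exists_gen (L : Submodule ℤ V) (f : V →ₗ[ℚ] ℚ) (hf : ∀ x ∈ L, I (f x)) :
    ∃ x ∈ L, 0 ≤ f x ∧ ∀ y ∈ L, ∃ m : ℤ, f y = m * f x := by
  let T : AddSubgroup ℤ :=
    { carrier := {n | ∃ x ∈ L, f x = n}
      zero_mem' := ⟨0, L.zero_mem, by simp⟩
      add_mem' := by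
        rintro a b ⟨x, hx, ha⟩ ⟨y, hy, hb⟩
        exact ⟨x + y, L.add_mem hx hy, by simp [ha, hb]⟩
      neg_mem' := by
        rintro a ⟨x, hx, ha⟩
        exact ⟨-x, L.neg_mem hx, by simp [ha]⟩ }
  obtain ⟨a, ha⟩ := Int.subgroup_cyclic T
  obtain ⟨x, hx, hxa⟩ : a ∈ T := by rw [ha]; exact AddSubgroup.mem_closure_singleton_self a
  have h1 : ∀ y ∈ L, ∃ m : ℤ, f y = m * f x := by
    intro y hy
    obtain ⟨n, hn⟩ := hf y hy
    have : n ∈ T := ⟨y, hy, hn⟩
    rw [ha, AddSubgroup.mem_closure_singleton] at this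
    obtain ⟨m, rfl⟩ := this
    exact ⟨m, by rw [hn, hxa]; simp⟩
  rcases le_total 0 (f x) with c | c
  · exact ⟨x, hx, c, h1⟩
  · refine ⟨-x, L.neg_mem hx, by simpa using c, fun y hy => ?_⟩
    obtain ⟨m, hm⟩ := h1 y hy
    exact ⟨-m, by simp [hm]⟩

theorem Irr.exists_cfg {ρ : Representation ℚ G V} (h : Irr ρ) [Finite G] (hρ : ∀ g, ρ g = 1 → g = 1) :
    ∃ β L σ v d, Cfg ρ β L σ v d := by
  obtain ⟨β, L, σ, v0, hp, hf0, h1, h2⟩ := h.exists_good hρ
  have := hp.lat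
  obtain ⟨n, hn, hv1⟩ := exists_smul_mem L v0
  have hn0 : (n : ℚ) ≠ 0 := by exact_mod_cast hn.ne'
  have hf1 := hf0.smul hn0
  set v1 := (n : ℚ) • v0 with hv1'
  have hp1 := hp.pd.pos v1 hf1.ne
  obtain ⟨v, ⟨hv, hv'⟩, -, h3⟩ := exists_gen (L ⊓ (Submodule.span ℚ {v1}).restrictScalars ℤ) (β v1)
    fun x hx => hp.int _ hv1 _ hx.1
  obtain ⟨a, rfl⟩ := Submodule.mem_span_singleton.1 hv'
  have h4 : ∀ c : ℚ, c • v1 ∈ L → ∃ m : ℤ, c = m * a := by
    intro c hc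
    obtain ⟨m, hm⟩ := h3 (c • v1) ⟨hc, Submodule.smul_mem _ c (Submodule.mem_span_singleton_self v1)⟩
    simp only [map_smul, smul_eq_mul, ← mul_assoc] at hm
    exact ⟨m, mul_right_cancel₀ hp1.ne' hm⟩
  have ha : a ≠ 0 := by
    rintro rfl
    obtain ⟨m, hm⟩ := h4 1 (by simpa using hv1)
    simp at hm
  have hf := hf1.smul ha
  set v := a • v1 with hvd
  have h5 : ∀ c : ℚ, c • v ∈ L → I c := by
    intro c hc
    obtain ⟨m, hm⟩ := h4 (c * a) (by rwa [← smul_smul])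
    exact ⟨m, mul_right_cancel₀ ha hm⟩
  obtain ⟨x, hx, hx0, h6⟩ := exists_gen L (β.flip v) fun x hx => hp.int _ hx _ hv
  simp only [LinearMap.BilinForm.flip_apply] at hx0 h6
  obtain ⟨d, hd⟩ := hp.int x hx v hv
  lift d to ℕ using by rw [hd] at hx0; exact_mod_cast hx0
  rw [Int.cast_natCast] at hd
  rw [hd] at h6
  obtain ⟨m, hm⟩ := h6 v hv
  have hpv := hp.pd.pos v hf.ne
  have hd0 : (0 : ℚ) < d := by
    rcases Nat.eq_zero_or_pos d with c | c
    · rw [hm, c] at hpv; simp at hpv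
    · exact_mod_cast c
  have hm0 : 0 < m := by
    rw [hm] at hpv
    exact_mod_cast (mul_pos_iff_of_pos_right hd0).1 hpv
  have h7 := h5 _ (hf.norm_map hp.pd hp.inv x ▸ L.sum_mem fun i _ => hp.stab _ _ hx)
  have hm1 : (m : ℚ) ≠ 0 := by exact_mod_cast hm0.ne'
  rw [hd, hm, mul_div_mul_right _ _ hd0.ne'] at h7
  have h8 : m ∣ 23 := (I.div_iff hm0.ne').1 h7
  lift m to ℕ using hm0.le
  have hd' : ∀ x ∈ L, I (β x v / d) := fun y hy => by
    obtain ⟨k, hk⟩ := h6 y hy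
    exact ⟨k, by rw [hk, mul_div_cancel_right₀ _ hd0.ne']⟩
  rcases (Nat.dvd_prime (by norm_num : Nat.Prime 23)).1 (by exact_mod_cast h8 : m ∣ 23) with rfl | rfl
  · exfalso
    refine h.orth hp.pd hp.inv hf.ne fun g => ?_
    obtain ⟨j, hj⟩ := h6 _ (hp.stab g v hv)
    have e1 := hp.pd.cs (ρ g v) v
    rw [hp.inv, hj, hm] at e1
    have e2 : j ^ 2 ≤ 1 := by
      have : (j : ℚ) ^ 2 ≤ 1 := by
        by_contra c
        push_cast at e1
        nlinarith [mul_pos hd0 hd0]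
      exact_mod_cast this
    have e3 : j = 0 ∨ j = 1 ∨ j = -1 := by
      have : -1 ≤ j ∧ j ≤ 1 := by constructor <;> nlinarith
      omega
    rcases e3 with rfl | rfl | rfl
    · right; simpa using hj
    · left
      refine ⟨1, ?_⟩
      rw [one_smul, ← sub_eq_zero]
      exact hp.pd.eq_zero (by rw [hp.pd.nsub, hp.inv, hj, hm]; push_cast; linarith)
    · left
      refine ⟨-1, ?_⟩
      rw [neg_smul, one_smul, ← add_eq_zero_iff_eq_neg]
      exact hp.pd.eq_zero (by rw [hp.pd.nadd, hp.inv, hj, hm]; push_cast; linarith)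
  · refine ⟨β, L, σ, v, d, h, hp, hf, hv, by simpa using hm, hd', ⟨x, hx, hd⟩, fun y hy hyv => h1 y hy ?_, ?_⟩
    · simpa [hvd, hv1', ha, hn0] using hyv
    · rintro ⟨k, rfl⟩
      have := h5 _ (h2 ((23 : ℚ)⁻¹ • v) (fun z hz => ((hd' z hz).mul (I.nat k)).of_eq (by
        have : (k : ℚ) ≠ 0 := by rintro c; simp [c] at hd0
        rw [map_smul, LinearMap.smul_apply, hp.pd.symm]; push_cast; simp; field_simp))
        (by simpa [smul_smul] using hv))
      have := (I.div_iff (a := 1) (b := 23) (by norm_num)).1 (this.of_eq (by simp))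
      omega

/-- the sublattice of index `e` -/
def Sub (β : LinearMap.BilinForm ℚ V) (L : Submodule ℤ V) (v : V) (q : ℚ) : Submodule ℤ V where
  carrier := {x | x ∈ L ∧ I (β x v / q)}
  zero_mem' := ⟨L.zero_mem, by simpa using I.zero⟩
  add_mem' := fun {a b} ha hb => ⟨L.add_mem ha.1 hb.1, (ha.2.add hb.2).of_eq (by simp [add_div])⟩
  smul_mem' := fun n a ha => ⟨L.smul_mem n ha.1, ((I.int n).mul ha.2).of_eq (by simp [mul_div_assoc])⟩

namespace Cfg

variable {ρ : Representation ℚ G V} {β : LinearMap.BilinForm ℚ V} {L : Submodule ℤ V} {σ : G} {v : V}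
  {d : ℕ} (h : Cfg ρ β L σ v d)
include h

theorem pd : PD β := h.pair.pd

theorem dpos : (0 : ℚ) < d := by
  have := h.pd.pos v h.fix.ne
  rw [h.vv] at this
  linarith

theorem pow {a : ℕ} (h0 : 0 < a) (ha : a < 23) : Cfg ρ β L (σ ^ a) v d :=
  ⟨h.irr, h.pair, h.fix.pow h0 ha, h.mem, h.vv, h.dvd, h.one, h.dual0, h.cop⟩

theorem nm (x : V) : ∑ i ∈ Finset.range 23, ρ (σ ^ i) x = (β x v / d) • v := by
  rw [h.fix.norm_map h.pd h.pair.inv, h.vv, mul_div_mul_left _ _ (by norm_num)]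

theorem ip (n : ℕ) (x : V) : β (ρ (σ ^ n) x) v = β x v := h.fix.ip_pow h.pair.inv n x

theorem exk {x : V} (hx : x ∈ L) : ∃ k : ℤ, β x v = k * d := by
  obtain ⟨k, hk⟩ := h.dvd x hx
  exact ⟨k, (div_eq_iff h.dpos.ne').1 hk⟩

theorem csymm (x : V) {i : ℕ} (hi : i ≤ 23) : β x (ρ (σ ^ (23 - i)) x) = β x (ρ (σ ^ i) x) := by
  rw [← h.pair.inv (σ ^ i), ← app_mul, ← pow_add, Nat.add_sub_cancel' hi, h.fix.pow23, app_one, h.pd.symm]

theorem even0 {x : V} (hx : x ∈ L) (hv : β x v = 0) : I (β x x / 2) := by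
  have h1 := congrArg (β x) (h.nm x)
  simp only [hv, zero_div, zero_smul, map_zero, Finset.sum_range_succ, Finset.sum_range_zero,
    map_add] at h1
  have h2 := fun i hi => h.csymm x (i := i) hi
  have h3 := I.sum (Finset.range 11) fun i _ => h.pair.int x hx _ (h.pair.stab (σ ^ (i + 1)) x hx)
  simp only [Finset.sum_range_succ, Finset.sum_range_zero] at h3
  refine h3.neg.of_eq ?_
  rw [pow_zero, app_one] at h1
  have := h2 1 (by norm_num); have := h2 2 (by norm_num); have := h2 3 (by norm_num)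
  have := h2 4 (by norm_num); have := h2 5 (by norm_num); have := h2 6 (by norm_num)
  have := h2 7 (by norm_num); have := h2 8 (by norm_num); have := h2 9 (by norm_num)
  have := h2 10 (by norm_num); have := h2 11 (by norm_num)
  simp only [Nat.reduceSub, Nat.reduceAdd] at *
  linarith

theorem par {x : V} (hx : x ∈ L) {k : ℤ} (hk : β x v = k * d) : I ((β x x - k ^ 2 * d) / 2) := by
  obtain ⟨z, hz, hzv, c, hc⟩ := h.pair.sub_norm h.fix hx
  have h1 := congrArg (fun y => β y v) hc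
  have h2 := congrArg (fun y => β y y) hc
  simp only [map_smul, map_add, LinearMap.add_apply, LinearMap.smul_apply, smul_eq_mul, hzv, h.vv, hk,
    h.pd.symm v z] at h1 h2
  have h3 : c = k := by
    have := h.dpos
    have : (c - k) * d = 0 := by linarith
    rcases mul_eq_zero.1 this with e | e <;> linarith
  subst h3
  refine (((h.even0 hz hzv).sub ((I.int 264).mul (h.pair.int x hx x hx))).add
    ((I.int (11 * k ^ 2)).mul (I.nat d))).of_eq ?_
  push_cast; linarith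

theorem diff_mem {y : V} (hy : ∀ x ∈ L, β x v = 0 → I (β y x)) (i : ℕ) : y - ρ (σ ^ i) y ∈ L := by
  refine h.dual0 _ (fun x hx => (hy (x - ρ (σ ^ i)⁻¹ x) (L.sub_mem hx (h.pair.stab _ _ hx)) ?_).of_eq ?_) ?_
  · rw [map_sub, LinearMap.sub_apply, ← h.ip i (ρ _ x), app_inv', sub_self]
  · rw [map_sub, map_sub, LinearMap.sub_apply, ← h.pair.inv (σ ^ i) y (ρ _ x), app_inv']
  · rw [map_sub, LinearMap.sub_apply, h.ip, sub_self]

theorem bnd {y : V} (hy : ∀ c : ℚ, y ≠ c • v) {μ : ℚ}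
    (hμ : ∀ i, y ≠ ρ (σ ^ i) y → μ ≤ β (y - ρ (σ ^ i) y) (y - ρ (σ ^ i) y)) :
    11 * μ + β y v ^ 2 / d ≤ 23 * β y y := by
  have h1 : ∑ i ∈ Finset.range 23, β (y - ρ (σ ^ i) y) (y - ρ (σ ^ i) y) =
      46 * β y y - 2 * (β y v ^ 2 / d) := by
    simp only [h.pd.nsub, h.pair.inv, Finset.sum_add_distrib, Finset.sum_sub_distrib, ← Finset.mul_sum,
      Finset.sum_const, Finset.card_range, nsmul_eq_mul]
    rw [← map_sum, h.nm, map_smul, smul_eq_mul]
    push_cast; ring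
  rw [Finset.sum_range_succ', pow_zero, app_one, sub_self, map_zero, add_zero] at h1
  have h2 := Finset.card_nsmul_le_sum (Finset.range 22)
    (fun i => β (y - ρ (σ ^ (i + 1)) y) (y - ρ (σ ^ (i + 1)) y)) μ fun i hi => hμ _ fun c => by
      obtain ⟨a, ha⟩ := (h.fix.pow (Nat.succ_pos i) (by have := Finset.mem_range.1 hi; omega)).only y c.symm
      exact hy a ha
  rw [h1, Finset.card_range, nsmul_eq_mul] at h2
  push_cast at h2
  linarith

theorem sub_lat {e : ℕ} (he : 0 < e) : (Sub β L v (e * d)).IsLattice ℚ := by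
  have := h.pair.lat
  have he' : (e : ℚ) ≠ 0 := by exact_mod_cast he.ne'
  exact isLattice_of L _ (fg_of_le h.pair.lat.fg fun x hx => hx.1) fun x hx =>
    ⟨e, he', (I.nat e).smul_mem hx, (h.dvd x hx).of_eq (by simp [mul_div_mul_left _ _ he'])⟩

theorem smul_mem_sub {e : ℕ} (he : 0 < e) {x : V} (hx : x ∈ L) : (e : ℚ) • x ∈ Sub β L v (e * d) := by
  have he' : (e : ℚ) ≠ 0 := by exact_mod_cast he.ne'
  exact ⟨(I.nat e).smul_mem hx, (h.dvd x hx).of_eq (by simp [mul_div_mul_left _ _ he'])⟩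

omit h in
theorem mem_sub0 (q : ℚ) {x : V} (hx : x ∈ L) (hv : β x v = 0) : x ∈ Sub β L v q :=
  ⟨hx, by rw [hv]; simpa using I.zero⟩

theorem y0_dual (q : ℚ) {x : V} (hx : x ∈ Sub β L v q) : I (β (q⁻¹ • v) x) :=
  hx.2.of_eq (by rw [map_smul, LinearMap.smul_apply, h.pd.symm, smul_eq_mul, inv_mul_eq_div])

theorem dual_sub0 {e : ℕ} (he : 0 < e) (he' : ¬ 23 ∣ e) {y : V}
    (hy : ∀ x ∈ Sub β L v (e * d), I (β y x)) (hv : β y v = 0) : y ∈ L := by
  refine h.dual0 y (fun x hx => ?_) hv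
  obtain ⟨z, hz, hzv, c, hc⟩ := h.pair.sub_norm h.fix hx
  have h1 := congrArg (β y) hc
  simp only [map_smul, map_add, hv, smul_eq_mul, mul_zero, add_zero] at h1
  refine I.of_coprime (a := 23) (b := e) ((Nat.isCoprime_iff_coprime (m := 23)).2
    ((Nat.Prime.coprime_iff_not_dvd (by norm_num)).2 he')) ((hy z (mem_sub0 _ hz hzv)).of_eq ?_)
    ((hy _ (h.smul_mem_sub he hx)).of_eq (by simp))
  rw [← h1]; norm_num

theorem dual_sub {e : ℕ} (he : 0 < e) (he' : ¬ 23 ∣ e) {y : V}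
    (hy : ∀ x ∈ Sub β L v (e * d), I (β y x)) :
    ∃ m : ℤ, y - (m : ℚ) • ((e * d : ℚ)⁻¹ • v) ∈ Sub β L v (e * d) := by
  have he0 : (e : ℚ) ≠ 0 := by exact_mod_cast he.ne'
  have hd0 := h.dpos.ne'
  obtain ⟨x, hx, hxv⟩ := h.one
  obtain ⟨s, hs⟩ := hy _ (h.smul_mem_sub he h.mem)
  have hc : IsCoprime ((23 : ℕ) : ℤ) ((e * e * d : ℕ) : ℤ) := by
    rw [Nat.isCoprime_iff_coprime, Nat.Prime.coprime_iff_not_dvd (by norm_num)]
    intro c
    rcases (Nat.Prime.dvd_mul (by norm_num)).1 c with c | c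
    · rcases (Nat.Prime.dvd_mul (by norm_num)).1 c with c | c <;> exact he' c
    · exact h.cop c
  obtain ⟨a, b, hab⟩ := hc
  have hab' : (a : ℚ) * 23 + b * (e * e * d) = 1 := by exact_mod_cast hab
  have hm : ((s * b : ℤ) : ℚ) • (e : ℚ) • x ∈ Sub β L v (e * d) := (I.int _).smul_mem (h.smul_mem_sub he hx)
  have hv : β (y - ((s * a : ℤ) : ℚ) • ((e * d : ℚ)⁻¹ • v) - ((s * b : ℤ) : ℚ) • (e : ℚ) • x) v = 0 := by
    simp only [map_sub, map_smul, LinearMap.sub_apply, LinearMap.smul_apply, smul_eq_mul, h.vv, hxv] at hs ⊢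
    push_cast
    field_simp
    linear_combination hs - s * hab'
  refine ⟨s * a, ?_⟩
  have := (Sub β L v (e * d)).add_mem (mem_sub0 _ (h.dual_sub0 he he' (fun z hz => ?_) hv) hv) hm
  · rwa [sub_add_cancel] at this
  · rw [map_sub, map_sub, LinearMap.sub_apply, LinearMap.sub_apply, map_smul, LinearMap.smul_apply]
    exact ((hy z hz).sub ((I.int _).mul (h.y0_dual _ hz))).sub (h.pair.int _ hm.1 _ hz.1)

theorem sub_one : Sub β L v ((1 : ℕ) * d) = L :=
  le_antisymm (fun _ hx => hx.1) fun x hx => ⟨hx, (h.dvd x hx).of_eq (by simp)⟩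

theorem sub_even {e : ℕ} (he : e = 2 ∨ 2 ∣ d) {x : V} (hx : x ∈ Sub β L v (e * d)) : I (β x x / 2) := by
  obtain ⟨k, hk⟩ := h.exk hx.1
  have h1 := h.par hx.1 hk
  rcases he with rfl | ⟨a, rfl⟩
  · obtain ⟨m, hm⟩ := hx.2
    have hd := h.dpos
    have : (k : ℚ) = 2 * m := by
      rw [hk, div_eq_iff (by positivity)] at hm
      exact mul_right_cancel₀ hd.ne' (by rw [hm]; push_cast; ring)
    rw [this] at h1
    exact (h1.add ((I.int (2 * m ^ 2)).mul (I.nat d))).of_eq (by push_cast; ring)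
  · exact (h1.add ((I.int (k ^ 2)).mul (I.nat a))).of_eq (by push_cast; ring)

theorem sub_stab (hd : ¬ 2 ∣ d) (g : G) {x : V} (hx : x ∈ Sub β L v ((2 : ℕ) * d)) :
    ρ g x ∈ Sub β L v ((2 : ℕ) * d) := by
  have hx' := h.pair.stab g x hx.1
  obtain ⟨k, hk⟩ := h.exk hx'
  have h1 := (h.sub_even (.inl rfl) hx).sub (h.par hx' hk)
  rw [h.pair.inv] at h1
  have h2 : (2 : ℤ) ∣ k ^ 2 * d := (I.div_iff (by norm_num)).1 (h1.of_eq (by push_cast; ring))
  have h3 : (2 : ℤ) ∣ k := by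
    rcases Int.prime_two.dvd_or_dvd h2 with c | c
    · exact Int.prime_two.dvd_of_dvd_pow c
    · exact absurd (by exact_mod_cast c) hd
  obtain ⟨m, rfl⟩ := h3
  have := h.dpos
  exact ⟨hx', m, by rw [hk]; push_cast; field_simp⟩

theorem reduce {c : ℕ} (hc : d = 4 * c) : ∃ L', Cfg ρ β L' σ ((2 : ℚ)⁻¹ • v) c := by
  have hd0 := h.dpos
  have hc' : (d : ℚ) = 4 * c := by exact_mod_cast hc
  have hc0 : (0 : ℚ) < c := by linarith
  set u := (2 : ℚ)⁻¹ • v with hu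
  have hL : ∀ x, x ∈ L ⊔ Submodule.span ℤ {u} ↔ ∃ a ∈ L, ∃ m : ℤ, x = a + (m : ℚ) • u := by
    intro x
    simp only [Submodule.mem_sup, Submodule.mem_span_singleton, zsmul_eq]
    constructor
    · rintro ⟨a, ha, _, ⟨m, rfl⟩, rfl⟩; exact ⟨a, ha, m, rfl⟩
    · rintro ⟨a, ha, m, rfl⟩; exact ⟨a, ha, _, ⟨m, rfl⟩, rfl⟩
  have hle : ∀ x ∈ L, x ∈ L ⊔ Submodule.span ℤ {u} := fun x hx => Submodule.mem_sup_left hx
  have hum : u ∈ L ⊔ Submodule.span ℤ {u} := Submodule.mem_sup_right (Submodule.mem_span_singleton_self u)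
  have huu : β u u = 23 * c := by
    simp only [hu, map_smul, LinearMap.smul_apply, smul_eq_mul, h.vv, hc']; ring
  have hxu : ∀ x ∈ L, ∃ k : ℤ, β x u = 2 * k * c := fun x hx => by
    obtain ⟨k, hk⟩ := h.exk hx
    exact ⟨k, by simp only [hu, map_smul, smul_eq_mul, hk, hc']; ring⟩
  have hdv : ∀ x ∈ L ⊔ Submodule.span ℤ {u}, I (β x u / c) := by
    intro x hx
    obtain ⟨a, ha, m, rfl⟩ := (hL x).1 hx
    obtain ⟨k, hk⟩ := hxu a ha
    exact ⟨2 * k + m * 23, by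
      rw [map_add, LinearMap.add_apply, hk, map_smul β, LinearMap.smul_apply, huu, smul_eq_mul]
      push_cast; field_simp⟩
  have hi : ∀ x ∈ L ⊔ Submodule.span ℤ {u}, I (β x u) := fun x hx =>
    ((hdv x hx).mul (I.nat c)).of_eq (by field_simp)
  have := h.pair.lat
  refine ⟨L ⊔ Submodule.span ℤ {u}, h.irr, ⟨h.pd, h.pair.inv, isLattice_of L _
    (h.pair.lat.fg.sup (Submodule.fg_span_singleton u)) fun x hx => ⟨1, one_ne_zero, by simpa using hle x hx⟩,
    fun g x hx => ?_, fun x hx y hy => ?_⟩, h.fix.smul (by norm_num), hum, huu, hdv, ?_,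
    fun y hy hyu => hle _ (h.dual0 y (fun x hx => hy x (hle x hx)) (by simpa [hu] using hyu)),
    fun e => h.cop (hc ▸ e.mul_left 4)⟩
  · obtain ⟨a, ha, m, rfl⟩ := (hL x).1 hx
    rw [map_add, map_smul]
    refine Submodule.add_mem _ (hle _ (h.pair.stab g a ha)) ((I.int m).smul_mem ?_)
    obtain ⟨n, hn⟩ := h.dual_sub (e := 1) one_pos (by norm_num) (y := ρ g ((d : ℚ)⁻¹ • v)) fun z hz => by
      rw [← h.pair.inv g⁻¹, app_inv]
      have := h.y0_dual (((1 : ℕ) : ℚ) * d) (x := ρ g⁻¹ z) (by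
        rw [h.sub_one] at hz ⊢; exact h.pair.stab _ _ hz)
      simpa using this
    rw [h.sub_one] at hn
    refine (hL _).2 ⟨_, (I.nat (2 * c)).smul_mem hn, n, ?_⟩
    simp only [hu, map_smul, smul_sub, smul_smul, hc']
    push_cast
    rw [show (2 * (c : ℚ)) * (4 * (c : ℚ))⁻¹ = 2⁻¹ by field_simp; norm_num,
      show (2 * (c : ℚ)) * (n * (1 * (4 * (c : ℚ)))⁻¹) = n * 2⁻¹ by field_simp; ring, sub_add_cancel]
  · obtain ⟨b, hb, n, rfl⟩ := (hL y).1 hy
    rw [map_add, map_smul]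
    refine I.add ?_ ((I.int n).mul (hi x hx))
    obtain ⟨a, ha, m, rfl⟩ := (hL x).1 hx
    rw [map_add, map_smul, LinearMap.add_apply, LinearMap.smul_apply, h.pd.symm u]
    exact (h.pair.int a ha b hb).add ((I.int m).mul (hi b (hle b hb)))
  · obtain ⟨x, hx, hxv⟩ := h.one
    refine ⟨u - (11 : ℚ) • x, Submodule.sub_mem _ hum (I.smul_mem ⟨11, rfl⟩ (hle x hx)), ?_⟩
    rw [map_sub, LinearMap.sub_apply, huu]
    simp only [hu, map_smul, LinearMap.smul_apply, smul_eq_mul, hxv, hc']; ring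

end Cfg

theorem eqns_Cfg : True := by
  have := @Sub.eq_1.{0}
  trivial

end H16.Q23
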