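import Mathlib
import Cfsg.Agent.S0406
import Cfsg.Agent.S1632
import Cfsg.Agent.Lib.Q23.Mod

/-!
# Even unimodular lattices: gluing, rank 28 and rank 24
-/

set_option autoImplicit false

namespace H16.Q23

open Module Matrix

theorem det_nonneg {n : ℕ} (B : Matrix (Fin n) (Fin n) ℤ) (hs : B.IsSymm)
    (h : ∀ x : Fin n → ℤ, 0 ≤ x ⬝ᵥ (B *ᵥ x)) : 0 ≤ B.det := by
  have hc : Continuous (H56.qr (H56.rm B)) := by unfold H56.qr; fun_prop
  have h1 : ∀ x : Fin n → ℚ, 0 ≤ H56.qr (H56.rm B) (fun i => x i) := by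
    intro x
    set d : ℕ := ∏ i, (x i).den with hd
    have hd0 : (0 : ℝ) < d := by
      have : 0 < d := Finset.prod_pos fun i _ => (x i).den_pos
      exact_mod_cast this
    have hz : ∀ i, ∃ z : ℤ, (z : ℝ) = d * x i := by
      intro i
      obtain ⟨k, hk⟩ : (x i).den ∣ d := Finset.dvd_prod_of_mem _ (Finset.mem_univ i)
      refine ⟨k * (x i).num, ?_⟩
      have : ((x i).num : ℝ) = x i * (x i).den := by exact_mod_cast (Rat.mul_den_eq_num (x i)).symm
      rw [hk]; push_cast; rw [this]; ring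
    choose z hz using hz
    have h2 := H56.qr_smul (H56.rm B) d (fun i => x i)
    have h3 : ((d : ℝ) • fun i => (x i : ℝ)) = fun i => (z i : ℝ) := by ext i; simp [hz]
    rw [h3, H56.qr_rm] at h2
    have h4 : (0 : ℝ) ≤ ((z ⬝ᵥ (B *ᵥ z) : ℤ) : ℝ) := by exact_mod_cast h z
    rw [h2] at h4
    by_contra c
    have := mul_neg_of_pos_of_neg (pow_pos hd0 2) (not_le.1 c)
    linarith
  have h2 : ∀ x : Fin n → ℝ, 0 ≤ H56.qr (H56.rm B) x := by
    intro x
    have hd : DenseRange (fun (x : Fin n → ℚ) (i : Fin n) => (x i : ℝ)) :=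
      DenseRange.piMap (fun _ => Rat.denseRange_cast)
    exact hd.induction_on x (isClosed_le continuous_const hc) h1
  have hps : (H56.rm B).PosSemidef := by
    rw [Matrix.posSemidef_iff_dotProduct_mulVec]
    refine ⟨?_, fun x => ?_⟩
    · ext i j; simp [H56.rm, hs.apply]
    · have := h2 x
      rwa [H56.qr_eq] at this
  have h3 := hps.det_nonneg
  rw [show (H56.rm B).det = ((B.det : ℤ) : ℝ) from (Int.cast_det B).symm] at h3
  exact_mod_cast h3

open Complex in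
theorem no28 {B : Matrix (Fin 28) (Fin 28) ℤ} (h : H56.EU B) : False := by
  have hT : ∀ z, H56.theta B (z + 1) = H56.theta B z := fun z => by
    refine tsum_congr fun x => ?_
    rw [H56.gt_theta, H56.gt_theta]
    obtain ⟨k, hk⟩ := h.even x
    rw [hk, Complex.exp_eq_exp_iff_exists_int]
    exact ⟨k, by push_cast; ring⟩
  have hS : ∀ z w : ℂ, z * w = -1 → 0 < w.im → H56.theta B w = -z ^ 14 * H56.theta B z := by
    intro z w hzw hw
    have h1 := h.transform (s := -Complex.I * w) (by simpa using hw)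
    have h2 : (-Complex.I * w)⁻¹ = -Complex.I * z := inv_eq_of_mul_eq_one_right (by linear_combination (z * w) * I_sq - hzw)
    have h3 : (1 / (-Complex.I * w) ^ (1 / 2 : ℂ)) ^ 28 = -z ^ 14 := by
      rw [one_div, inv_pow, ← cpow_nat_mul, show ((28 : ℕ) : ℂ) * (1 / 2) = ((14 : ℕ) : ℂ) by norm_num,
        cpow_natCast, ← inv_pow, h2, mul_pow]
      have : (-Complex.I) ^ 14 = -1 := by
        rw [show 14 = 2 * 7 by rfl, pow_mul, neg_sq, I_sq]; norm_num
      rw [this, neg_one_mul]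
    rw [h2, h3] at h1
    exact h1
  have e1 := hS (Complex.I + 1) ((-1 + Complex.I) / 2) (by linear_combination (1 / 2 : ℂ) * I_sq) (by simp)
  have e2 := hS ((-1 + Complex.I) / 2 + 1) (-1 + Complex.I) (by linear_combination (1 / 2 : ℂ) * I_sq) (by simp)
  have e3 := hT (-1 + Complex.I)
  rw [hT] at e1 e2
  rw [show -1 + Complex.I + 1 = Complex.I by ring, e2, e1, ← mul_assoc, neg_mul_neg, ← mul_pow,
    show ((-1 + Complex.I) / 2 + 1) * (Complex.I + 1) = Complex.I by linear_combination (1 / 2 : ℂ) * I_sq,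
    show 14 = 2 * 7 by rfl, pow_mul, I_sq] at e3
  have hne : H56.theta B Complex.I ≠ 0 := by
    rw [H56.theta, show -Complex.I * Complex.I = 1 by linear_combination -I_sq]
    have hsum := H56.summable_gt h.pd (s := 1) (by simp) 0
    have e1 : ∀ x, H56.gt (H56.rm B) 1 0 x = ((‖H56.gt (H56.rm B) 1 0 x‖ : ℝ) : ℂ) := by
      intro x
      rw [H56.norm_gt, H56.gt, H56.qf_intCast]
      simp
    rw [tsum_congr e1, ← ofReal_tsum, ofReal_ne_zero]
    refine (hsum.tsum_pos (fun _ => norm_nonneg _) 0 ?_).ne'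
    rw [H56.norm_gt]; exact Real.exp_pos _
  apply hne
  linear_combination (1 / 2 : ℂ) * e3

variable {V : Type*} [AddCommGroup V] [Module ℚ V]

theorem int_of_even {β : LinearMap.BilinForm ℚ V} (hβ : PD β) {N : Submodule ℤ V}
    (h : ∀ x ∈ N, I (β x x / 2)) {x y : V} (hx : x ∈ N) (hy : y ∈ N) : I (β x y) :=
  (((h _ (N.add_mem hx hy)).sub (h x hx)).sub (h y hy)).of_eq (by rw [hβ.nadd]; ring)

/-- even lattice whose dual is generated by the lattice and one more vector -/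
structure Cyc (β : LinearMap.BilinForm ℚ V) (A : Submodule ℤ V) (y : V) : Prop where
  pd : PD β
  lat : A.IsLattice ℚ
  even : ∀ x ∈ A, I (β x x / 2)
  dual : ∀ x ∈ A, I (β y x)
  gen : ∀ z, (∀ x ∈ A, I (β z x)) → ∃ m : ℤ, z - (m : ℚ) • y ∈ A

theorem Cyc.gram {β : LinearMap.BilinForm ℚ V} {N : Submodule ℤ V} (h : Cyc β N 0) {n : ℕ}
    (hn : finrank ℚ V = n) : ∃ (B : Matrix (Fin n) (Fin n) ℤ) (e : (Fin n → ℤ) ≃+ N), H56.EU B ∧
      ∀ x, ((x ⬝ᵥ (B *ᵥ x) : ℤ) : ℚ) = β (e x) (e x) := by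
  have := h.lat
  obtain ⟨b, d, h1, -⟩ := exists_coord h.pd N hn
  obtain ⟨γ, hγ⟩ := exists_intForm β N fun x hx y hy => int_of_even h.pd h.even hx hy
  let B : Matrix (Fin n) (Fin n) ℤ := fun i j => γ (b i) (b j)
  have h2 : ∀ x, ((x ⬝ᵥ (B *ᵥ x) : ℤ) : ℚ) = β (b.equivFun.symm x) (b.equivFun.symm x) := by
    intro x
    rw [← hγ]
    congr 1
    simp only [Basis.equivFun_symm_apply, map_sum, map_smul, LinearMap.sum_apply, LinearMap.smul_apply,
      dotProduct, mulVec, B, Finset.mul_sum, smul_eq_mul]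
    rw [Finset.sum_comm]
    exact Finset.sum_congr rfl fun i _ => Finset.sum_congr rfl fun j _ => by ring
  have hs : B.IsSymm := by
    ext i j
    have := h.pd.symm (b j) (b i)
    rw [← hγ, ← hγ] at this
    exact_mod_cast this
  have hd : ∀ i, d i ∈ N := fun i => by
    obtain ⟨m, hm⟩ := h.gen (d i) fun x hx => ⟨_, h1 i ⟨x, hx⟩⟩
    simpa using hm
  have h3 : (Matrix.of fun i j => b.repr ⟨d i, hd i⟩ j) * B = 1 := by
    ext i k
    have e1 := hγ ⟨d i, hd i⟩ (b k)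
    rw [h1] at e1
    have e2 : γ ⟨d i, hd i⟩ (b k) = b.repr (b k) i := by exact_mod_cast e1
    rw [← b.sum_repr ⟨d i, hd i⟩] at e2
    simp only [map_sum, map_smul, LinearMap.sum_apply, LinearMap.smul_apply, smul_eq_mul] at e2
    rw [Matrix.mul_apply]
    simp only [Matrix.of_apply, B]
    rw [e2, Basis.repr_self, Finsupp.single_apply, Matrix.one_apply]
    simp only [eq_comm]
  have h4 := congrArg Matrix.det h3
  rw [Matrix.det_mul, Matrix.det_one] at h4
  refine ⟨B, b.equivFun.symm.toAddEquiv, ⟨hs, fun x hx => ?_, fun x => ?_, ?_⟩, h2⟩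
  · have := h.pd.pos (b.equivFun.symm x) fun c => hx (b.equivFun.symm.injective (by
      rw [map_zero]; exact Subtype.ext c))
    rw [← h2] at this
    exact_mod_cast this
  · have := h.even _ (b.equivFun.symm x).2
    rw [← h2] at this
    exact (I.div_iff (by norm_num)).1 this
  · refine Int.eq_one_of_mul_eq_one_left (det_nonneg B hs fun x => ?_) h4
    have := h.pd.nonneg (b.equivFun.symm x)
    rw [← h2] at this
    exact_mod_cast this

theorem Cyc.leech {β : LinearMap.BilinForm ℚ V} {N : Submodule ℤ V} (h : Cyc β N 0)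
    (hn : finrank ℚ V = 24) (h2 : ∀ x ∈ N, β x x ≠ 2) : ∃ f : N ≃+ Cfsg.leechLattice,
      ∀ x : N, (Cfsg.sqNorm ((f x : Cfsg.leechLattice) : Cfsg.GolayPt → ℤ) : ℚ) = 8 * β x x := by
  obtain ⟨B, e, hB, he⟩ := h.gram hn
  have h3 : ∀ x, x ⬝ᵥ (B *ᵥ x) ≠ 2 := fun x c => h2 _ (e x).2 (by rw [← he, c]; rfl)
  obtain ⟨c4, c6, c8⟩ := Cfsg.Agent.S1632.result B hB.symm hB.pos hB.even hB.det h3
  obtain ⟨f, hf⟩ := Cfsg.Agent.S0406.result B hB.symm hB.pos hB.even h3 c4 c6 c8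
  refine ⟨e.symm.trans f, fun x => ?_⟩
  rw [AddEquiv.trans_apply, hf]
  push_cast
  rw [← Int.cast_id (n := e.symm x ⬝ᵥ _)]
  have := he (e.symm x)
  rw [e.apply_symm_apply] at this
  rw [← this]; simp

variable {W : Type*} [AddCommGroup W] [Module ℚ W]

/-- orthogonal sum of two forms -/
noncomputable def osum (β : LinearMap.BilinForm ℚ V) (γ : LinearMap.BilinForm ℚ W) :
    LinearMap.BilinForm ℚ (V × W) :=
  β.comp (LinearMap.fst ℚ V W) (LinearMap.fst ℚ V W) + γ.comp (LinearMap.snd ℚ V W) (LinearMap.snd ℚ V W)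

theorem osum_apply (β : LinearMap.BilinForm ℚ V) (γ : LinearMap.BilinForm ℚ W) (p q : V × W) :
    osum β γ p q = β p.1 q.1 + γ p.2 q.2 := rfl

/-- the glued lattice -/
def glue (A : Submodule ℤ V) (y : V) (K : Submodule ℤ W) (u : W) : Submodule ℤ (V × W) where
  carrier := {p | ∃ m : ℤ, p.1 - (m : ℚ) • y ∈ A ∧ p.2 - (m : ℚ) • u ∈ K}
  zero_mem' := ⟨0, by simp, by simp⟩
  add_mem' := by
    rintro p q ⟨m, h1, h2⟩ ⟨n, h3, h4⟩
    refine ⟨m + n, ?_, ?_⟩
    · convert A.add_mem h1 h3 using 1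
      simp only [Prod.fst_add, Int.cast_add, add_smul]; abel
    · convert K.add_mem h2 h4 using 1
      simp only [Prod.snd_add, Int.cast_add, add_smul]; abel
  smul_mem' := by
    rintro c p ⟨m, h1, h2⟩
    refine ⟨c * m, ?_, ?_⟩
    · convert (I.int c).smul_mem h1 using 1
      simp only [Prod.smul_fst, Int.cast_mul, smul_sub, mul_smul, zsmul_eq]
    · convert (I.int c).smul_mem h2 using 1
      simp only [Prod.smul_snd, Int.cast_mul, smul_sub, mul_smul, zsmul_eq]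

theorem Cyc.norm {β : LinearMap.BilinForm ℚ V} {A : Submodule ℤ V} {y : V} (h : Cyc β A y) {z : V} {m : ℤ}
    (hz : z - (m : ℚ) • y ∈ A) : I ((β z z - m ^ 2 * β y y) / 2) := by
  refine ((h.even _ hz).add ((I.int m).mul (h.dual _ hz))).of_eq ?_
  simp only [map_sub, map_smul, LinearMap.sub_apply, LinearMap.smul_apply, smul_eq_mul, h.pd.symm y z]
  ring

theorem Cyc.glue {β : LinearMap.BilinForm ℚ V} {A : Submodule ℤ V} {y : V} (h : Cyc β A y)
    {γ : LinearMap.BilinForm ℚ W} {K : Submodule ℤ W} {u : W} (k : Cyc γ K u)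
    (he : I ((β y y + γ u u) / 2)) (hu : ∀ m : ℤ, I (m * γ u u) → (m : ℚ) • u ∈ K) :
    Cyc (osum β γ) (glue A y K u) 0 := by
  have := h.lat
  have := k.lat
  have hA : ∀ a ∈ A, (a, (0 : W)) ∈ H16.Q23.glue A y K u := fun a ha => ⟨0, by simpa using ha, by simp⟩
  have hK : ∀ a ∈ K, ((0 : V), a) ∈ H16.Q23.glue A y K u := fun a ha => ⟨0, by simp, by simpa using ha⟩
  refine ⟨⟨fun p q => by rw [osum_apply, osum_apply, h.pd.symm, k.pd.symm], fun p hp => ?_⟩, ⟨?_, ?_⟩, ?_,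
    fun _ _ => by simpa using I.zero, fun p hp => ⟨0, ?_⟩⟩
  · rw [osum_apply]
    by_cases c : p.1 = 0
    · exact add_pos_of_nonneg_of_pos (h.pd.nonneg _) (k.pd.pos _ fun e => hp (Prod.ext c e))
    · exact add_pos_of_pos_of_nonneg (h.pd.pos _ c) (k.pd.nonneg _)
  · refine fg_of_le ((h.lat.fg.prod k.lat.fg).sup (Submodule.fg_span_singleton (y, u))) ?_
    rintro p ⟨m, h1, h2⟩
    rw [Submodule.mem_sup]
    exact ⟨(p.1 - (m : ℚ) • y, p.2 - (m : ℚ) • u), ⟨h1, h2⟩, m • (y, u),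
      Submodule.smul_mem _ m (Submodule.mem_span_singleton_self _), by ext <;> simp [zsmul_eq]⟩
  · rw [eq_top_iff]
    rintro ⟨a, b⟩ -
    obtain ⟨m, hm, ha⟩ := exists_smul_mem A a
    obtain ⟨n, hn, hb⟩ := exists_smul_mem K b
    have hm0 : (m : ℚ) ≠ 0 := by exact_mod_cast hm.ne'
    have hn0 : (n : ℚ) ≠ 0 := by exact_mod_cast hn.ne'
    have := Submodule.add_mem _
      (Submodule.smul_mem _ (m : ℚ)⁻¹ (Submodule.subset_span (R := ℚ) (hA _ ha)))
      (Submodule.smul_mem _ (n : ℚ)⁻¹ (Submodule.subset_span (R := ℚ) (hK _ hb)))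
    simpa [smul_smul, hm0, hn0] using this
  · rintro p ⟨m, h1, h2⟩
    exact (((h.norm h1).add (k.norm h2)).add ((I.int (m ^ 2)).mul he)).of_eq (by
      rw [osum_apply]; push_cast; ring)
  · obtain ⟨m, hm⟩ := h.gen p.1 fun x hx => (hp _ (hA x hx)).of_eq (by simp [osum_apply])
    obtain ⟨n, hn⟩ := k.gen p.2 fun x hx => (hp _ (hK x hx)).of_eq (by simp [osum_apply])
    have h1 := hp (y, u) ⟨1, by simp, by simp⟩
    have h2 := hu (n - m) ((((h1.sub (h.dual _ hm)).sub (k.dual _ hn)).sub ((I.int (2 * m)).mul he)).of_eq (by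
      simp only [osum_apply, map_sub, map_smul, smul_eq_mul, h.pd.symm y p.1, k.pd.symm u p.2]
      push_cast; ring))
    refine ⟨m, by simpa using hm, ?_⟩
    convert K.add_mem hn h2 using 1
    simp [sub_smul]

/-- the integral vectors -/
def ZZ (ι : Type) : Submodule ℤ (ι → ℚ) where
  carrier := {x | ∀ i, I (x i)}
  zero_mem' := fun _ => I.zero
  add_mem' := fun ha hb i => (ha i).add (hb i)
  smul_mem' := fun n a ha i => ((I.int n).mul (ha i)).of_eq (by simp)

theorem ZZ_lat (ι : Type) [Fintype ι] [DecidableEq ι] : (ZZ ι).IsLattice ℚ := by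
  have h1 : ZZ ι = Submodule.span ℤ (Set.range (Pi.basisFun ℚ ι)) := by
    ext x
    rw [Basis.mem_span_iff_repr_mem]
    simp only [Pi.basisFun_repr, Set.mem_range, eq_intCast]
    exact forall_congr' fun i => exists_congr fun n => eq_comm
  rw [h1]
  exact ⟨Submodule.fg_span (Set.finite_range _), by rw [Submodule.span_span_of_tower, Basis.span_eq]⟩

/-- the form `D x y` -/
noncomputable def one1 (D : ℚ) : LinearMap.BilinForm ℚ (Fin 1 → ℚ) := Matrix.toBilin' !![D]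

theorem one1_apply (D : ℚ) (x y : Fin 1 → ℚ) : one1 D x y = D * x 0 * y 0 := by
  simp [one1, Matrix.toBilin'_apply, mul_comm D]

theorem cyc_one {D j : ℤ} (hD : 0 < D) (h2 : 2 ∣ D) (hj : IsCoprime j D) :
    Cyc (one1 D) (ZZ (Fin 1)) fun _ => j / D := by
  have hD' : (0 : ℚ) < D := by exact_mod_cast hD
  refine ⟨⟨fun x y => by rw [one1_apply, one1_apply]; ring, fun x hx => ?_⟩, ZZ_lat _, fun x hx => ?_,
    fun x hx => ((I.int j).mul (hx 0)).of_eq (by rw [one1_apply]; field_simp), fun z hz => ?_⟩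
  · have : x 0 ≠ 0 := fun c => hx (funext fun i => by rw [Subsingleton.elim i 0]; exact c)
    rw [one1_apply, mul_assoc]
    exact mul_pos hD' (mul_self_pos.2 this)
  · obtain ⟨k, rfl⟩ := h2
    exact ((I.int k).mul ((hx 0).mul (hx 0))).of_eq (by rw [one1_apply]; push_cast; ring)
  · obtain ⟨n, hn⟩ := hz (fun _ => 1) fun _ => I.one
    obtain ⟨a, b, hab⟩ := hj
    have hab' : (a : ℚ) * j + b * D = 1 := by exact_mod_cast hab
    rw [one1_apply] at hn
    refine ⟨n * a, fun i => ⟨n * b, ?_⟩⟩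
    rw [Subsingleton.elim i 0]
    simp only [Pi.sub_apply, Pi.smul_apply, smul_eq_mul]
    push_cast; field_simp
    linear_combination hn - n * hab'

/-- the form of the root lattice of type `A₄ + A₁` -/
noncomputable def a41 : LinearMap.BilinForm ℚ (Fin 5 → ℚ) :=
  Matrix.toBilin' !![2, -1, 0, 0, 0; -1, 2, -1, 0, 0; 0, -1, 2, -1, 0; 0, 0, -1, 2, 0; 0, 0, 0, 0, 2]

theorem a41_apply (x y : Fin 5 → ℚ) : a41 x y = (2 * x 0 - x 1) * y 0 + (2 * x 1 - x 0 - x 2) * y 1 +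
    (2 * x 2 - x 1 - x 3) * y 2 + (2 * x 3 - x 2) * y 3 + 2 * x 4 * y 4 := by
  simp [a41, Matrix.toBilin'_apply, Fin.sum_univ_succ]; ring

theorem cyc_a41 : Cyc a41 (ZZ (Fin 5)) ![3 / 5, 6 / 5, 4 / 5, 2 / 5, 1 / 2] := by
  refine ⟨⟨fun x y => by rw [a41_apply, a41_apply]; ring, fun x hx => ?_⟩, ZZ_lat _, fun x hx => ?_,
    fun x hx => ((hx 1).add (hx 4)).of_eq (by rw [a41_apply]; simp; ring), fun z hz => ?_⟩
  · by_contra c
    rw [a41_apply] at c
    have e0 := sq_nonneg (x 0); have e1 := sq_nonneg (x 0 - x 1); have e2 := sq_nonneg (x 1 - x 2)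
    have e3 := sq_nonneg (x 2 - x 3); have e4 := sq_nonneg (x 3); have e5 := sq_nonneg (x 4)
    have f0 : x 0 = 0 := pow_eq_zero_iff (two_ne_zero).symm.symm |>.1 (by nlinarith)
    have f1 : x 0 - x 1 = 0 := pow_eq_zero_iff (two_ne_zero).symm.symm |>.1 (by nlinarith)
    have f2 : x 1 - x 2 = 0 := pow_eq_zero_iff (two_ne_zero).symm.symm |>.1 (by nlinarith)
    have f3 : x 3 = 0 := pow_eq_zero_iff (two_ne_zero).symm.symm |>.1 (by nlinarith)
    have f4 : x 4 = 0 := pow_eq_zero_iff (two_ne_zero).symm.symm |>.1 (by nlinarith)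
    refine hx (funext fun i => ?_)
    fin_cases i <;> simp <;> linarith
  · choose n hn using hx
    exact ⟨n 0 ^ 2 + n 1 ^ 2 + n 2 ^ 2 + n 3 ^ 2 + n 4 ^ 2 - n 0 * n 1 - n 1 * n 2 - n 2 * n 3, by
      rw [a41_apply]; simp only [hn]; push_cast; ring⟩
  · have h1 : ∀ i : Fin 5, I (a41 z (Pi.single i 1)) := fun i => hz _ fun j => by
      rw [Pi.single_apply]; split_ifs; exacts [I.one, I.zero]
    choose n hn using h1
    have a0 := hn 0; have a1 := hn 1; have a2 := hn 2; have a3 := hn 3; have a4 := hn 4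
    rw [a41_apply] at a0 a1 a2 a3 a4
    simp at a0 a1 a2 a3 a4
    refine ⟨8 * n 0 + 6 * n 1 + 4 * n 2 + 2 * n 3 + 5 * n 4, fun i => ?_⟩
    fin_cases i
    · exact ⟨-4 * n 0 - 3 * n 1 - 2 * n 2 - n 3 - 3 * n 4, by simp; linarith⟩
    · exact ⟨-9 * n 0 - 6 * n 1 - 4 * n 2 - 2 * n 3 - 6 * n 4, by simp; linarith⟩
    · exact ⟨-6 * n 0 - 4 * n 1 - 2 * n 2 - n 3 - 4 * n 4, by simp; linarith⟩
    · exact ⟨-3 * n 0 - 2 * n 1 - n 2 - 2 * n 4, by simp; linarith⟩
    · exact ⟨-4 * n 0 - 3 * n 1 - 2 * n 2 - n 3 - 2 * n 4, by simp; linarith⟩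

theorem Cyc.not_ten {β : LinearMap.BilinForm ℚ V} {A : Submodule ℤ V} {y : V} (h : Cyc β A y)
    (hV : finrank ℚ V = 23) (hy : β y y = 23 / 10) : False := by
  have : FiniteDimensional ℚ V := Module.finite_of_finrank_pos (by rw [hV]; norm_num)
  have hu : a41 ![3 / 5, 6 / 5, 4 / 5, 2 / 5, 1 / 2] ![3 / 5, 6 / 5, 4 / 5, 2 / 5, 1 / 2] = 17 / 10 := by
    rw [a41_apply]; simp; norm_num
  obtain ⟨B, -, hB, -⟩ := (h.glue cyc_a41 ⟨2, by rw [hy, hu]; norm_num⟩ fun m hm => by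
    obtain ⟨k, hk⟩ := (I.div_iff (a := m * 17) (b := 10) (by norm_num)).1 (hm.of_eq (by
      rw [hu]; push_cast; ring))
    obtain ⟨t, rfl⟩ : 10 ∣ m := by omega
    intro i
    fin_cases i
    · exact ⟨6 * t, by simp; ring⟩
    · exact ⟨12 * t, by simp; ring⟩
    · exact ⟨8 * t, by simp; ring⟩
    · exact ⟨4 * t, by simp; ring⟩
    · exact ⟨5 * t, by simp; ring⟩).gram (n := 28) (by simp [hV])
  exact no28 hB

theorem eqns_Glue : True := by
  have := @osum.eq_1.{0, 0}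
  have := @glue.eq_1.{0, 0}
  have := @ZZ.eq_1
  have := @one1.eq_1
  have := @a41.eq_1
  trivial

end H16.Q23
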