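import Mathlib
import Cfsg.Agent.Base

/-!
# Finite checks on circulant Gram matrices of size 23
-/

set_option autoImplicit false

namespace H16.Q23

set_option maxRecDepth 100000 in
set_option synthInstance.maxSize 100000 in
set_option synthInstance.maxHeartbeats 2000000 in
theorem key : ∀ c2 ∈ ([-1, 0, 1] : List ℤ), ∀ c3 ∈ ([-1, 0, 1] : List ℤ), ∀ c4 ∈ ([-1, 0, 1] : List ℤ), ∀ c5 ∈ ([-1, 0, 1] : List ℤ), ∀ c6 ∈ ([-1, 0, 1] : List ℤ), ∀ c7 ∈ ([-1, 0, 1] : List ℤ), ∀ c8 ∈ ([-1, 0, 1] : List ℤ), ∀ c9 ∈ ([-1, 0, 1] : List ℤ), ∀ c10 ∈ ([-1, 0, 1] : List ℤ), ∀ c11 ∈ ([-1, 0, 1] : List ℤ),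
    c2 + c3 + c4 + c5 + c6 + c7 + c8 + c9 + c10 + c11 = 0 →
    0 ≤ 2 + (11) * c2 + (9) * c3 + (7) * c4 + (3) * c5 + (-1) * c6 + (-5) * c7 + (-8) * c8 + (-10) * c9 + (-12) * c10 + (-14) * c11 →
    0 ≤ 29 + (13) * c2 + (-12) * c3 + (11) * c4 + (-10) * c5 + (9) * c6 + (-8) * c7 + (7) * c8 + (-5) * c9 + (3) * c10 + (-1) * c11 →
    0 ≤ 23 + (-5) * c2 + (13) * c3 + (-10) * c4 + (-1) * c5 + (11) * c6 + (-12) * c7 + (3) * c8 + (9) * c9 + (-14) * c10 + (7) * c11 →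
    0 ≤ 16 + (-14) * c2 + (3) * c3 + (13) * c4 + (-5) * c5 + (-12) * c6 + (7) * c7 + (11) * c8 + (-8) * c9 + (-10) * c10 + (9) * c11 →
    0 ≤ 25 + (3) * c2 + (7) * c3 + (-12) * c4 + (13) * c5 + (-8) * c6 + (-1) * c7 + (9) * c8 + (-14) * c9 + (11) * c10 + (-5) * c11 →
    0 ≤ 8 + (-8) * c2 + (-14) * c3 + (-5) * c4 + (9) * c5 + (13) * c6 + (3) * c7 + (-10) * c8 + (-12) * c9 + (-1) * c10 + (11) * c11 →
    0 ≤ 27 + (9) * c2 + (-5) * c3 + (-1) * c4 + (7) * c5 + (-10) * c6 + (13) * c7 + (-14) * c8 + (11) * c9 + (-8) * c10 + (3) * c11 →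
    0 ≤ 6 + (-1) * c2 + (-10) * c3 + (-14) * c4 + (-8) * c5 + (3) * c6 + (11) * c7 + (13) * c8 + (7) * c9 + (-5) * c10 + (-12) * c11 →
    0 ≤ 12 + (-12) * c2 + (-8) * c3 + (9) * c4 + (11) * c5 + (-5) * c6 + (-14) * c7 + (-1) * c8 + (13) * c9 + (7) * c10 + (-10) * c11 →
    0 ≤ 20 + (-10) * c2 + (11) * c3 + (3) * c4 + (-14) * c5 + (7) * c6 + (9) * c7 + (-12) * c8 + (-1) * c9 + (13) * c10 + (-8) * c11 →
    0 ≤ 4 + (7) * c2 + (-1) * c3 + (-8) * c4 + (-12) * c5 + (-14) * c6 + (-10) * c7 + (-5) * c8 + (3) * c9 + (9) * c10 + (13) * c11 →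
    c2 = 0 ∧ c3 = 0 ∧ c4 = 0 ∧ c5 = 0 ∧ c6 = 0 ∧ c7 = 0 ∧ c8 = 0 ∧ c9 = 0 ∧ c10 = 0 ∧ c11 = 0 := by
  decide +kernel


/-- test vector -/
def zt : Fin 23 → ℤ := ![1, 1, 1, 1, 0, 0, 0, 0, -1, -1, -1, -1, -1, -1, -1, -1, 0, 0, 0, 0, 1, 1, 1]

/-- its autocorrelation -/
def at' : Fin 23 → ℤ :=
  ![15, 13, 11, 9, 7, 3, -1, -5, -8, -10, -12, -14, -14, -12, -10, -8, -5, -1, 3, 7, 9, 11, 13]

theorem auto : ∀ s, ∑ i, zt i * zt (i + s) = at' s := by decide +kernel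

/-- Cartan matrix of the cycle -/
def cart (s : Fin 23) : ℤ := if s = 0 then 2 else if s = 1 ∨ s = 22 then -1 else 0

theorem g1 : ∀ i t : Fin 23, ∑ s, (((s - i).val : ℤ)) * cart (t - s) =
    if t = i then -23 else if t = i - 1 then 23 else 0 := by decide +kernel

theorem g2 : ∀ i j : Fin 23, ∑ t, ((t - j).val : ℤ) * (if t = i then -23 else if t = i - 1 then 23 else 0) =
    if i = j then 506 else -23 := by decide +kernel

theorem gram_chk (i j : Fin 23) : ∑ s, ∑ t, (((s - i).val : ℤ) * (t - j).val) * cart (t - s) =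
    if i = j then 506 else -23 := by
  rw [← g2, Finset.sum_comm]
  refine Finset.sum_congr rfl fun t _ => ?_
  rw [← g1, Finset.mul_sum]
  exact Finset.sum_congr rfl fun s _ => by ring

theorem diff_chk : ∀ i j s : Fin 23, (23 : ℤ) ∣ (s - j).val - (s - i).val - ((0 - j).val - (0 - i).val) := by
  decide +kernel

theorem eqns_Key : True := by
  have := @zt.eq_1
  have := @at'.eq_1
  have := @cart.eq_1
  trivial

end H16.Q23
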