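import Mathlib
import Cfsg.Agent.Lib.Q23.Cfg
import Cfsg.Agent.Lib.Q23.Key

/-!
# Rational representations of degree 23: a root orthogonal to the fixed vector spans `A₂₂`
-/

set_option autoImplicit false

namespace H16.Q23

open Module

variable {V : Type*} [AddCommGroup V] [Module ℚ V] {G : Type*} [Group G]

theorem ip_shift {ρ : Representation ℚ G V} {β : LinearMap.BilinForm ℚ V}
    (hi : ∀ g x y, β (ρ g x) (ρ g y) = β x y) {τ : G} (hτ : τ ^ 23 = 1) (r : V) (i s : Fin 23) :
    β (ρ (τ ^ i.val) r) (ρ (τ ^ (i + s).val) r) = β r (ρ (τ ^ s.val) r) := by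
  rw [Fin.val_add, ← pow_eq_pow_mod _ hτ, pow_add, app_mul, hi]

theorem psd {ρ : Representation ℚ G V} {β : LinearMap.BilinForm ℚ V} (hβ : PD β)
    (hi : ∀ g x y, β (ρ g x) (ρ g y) = β x y) {τ : G} (hτ : τ ^ 23 = 1) (r : V) :
    0 ≤ ∑ s : Fin 23, (at' s : ℚ) * β r (ρ (τ ^ s.val) r) := by
  have h1 := hβ.nonneg (∑ i : Fin 23, (zt i : ℚ) • ρ (τ ^ i.val) r)
  simp only [map_sum, map_smul, LinearMap.sum_apply, LinearMap.smul_apply, smul_eq_mul, Finset.mul_sum] at h1
  refine h1.trans_eq ?_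
  simp only [← auto, Int.cast_sum, Int.cast_mul, Finset.sum_mul]
  conv_rhs => rw [Finset.sum_comm]
  refine Finset.sum_congr rfl fun i _ => (Fintype.sum_equiv (Equiv.addLeft i) _ _ fun s => ?_).symm
  simp only [Equiv.coe_addLeft]
  rw [hβ.symm _ (ρ (τ ^ i.val) r), ip_shift hi hτ]; ring

theorem root_ip {β : LinearMap.BilinForm ℚ V} (hβ : PD β) {a b : V} (ha : β a a = 2) (hb : β b b = 2)
    {n : ℤ} (hn : β a b = n) (h1 : a ≠ b) (h2 : a ≠ -b) : n ∈ ([-1, 0, 1] : List ℤ) := by
  have e1 := hβ.pos _ (sub_ne_zero.2 h1)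
  have e2 := hβ.pos (a + b) fun c => h2 (eq_neg_of_add_eq_zero_left c)
  rw [hβ.nsub, ha, hb, hn] at e1
  rw [hβ.nadd, ha, hb, hn] at e2
  have e3 : n < 2 := by exact_mod_cast (by linarith : (n : ℚ) < 2)
  have e4 : -2 < n := by exact_mod_cast (by linarith : (-2 : ℚ) < n)
  simp only [List.mem_cons, List.not_mem_nil, or_false]
  omega

namespace Cfg

variable {ρ : Representation ℚ G V} {β : LinearMap.BilinForm ℚ V} {L : Submodule ℤ V} {σ : G} {v : V}
  {d : ℕ} (h : Cfg ρ β L σ v d)
include h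

theorem eq_zero_of_par {y : V} {c : ℚ} (hy : y = c • v) (hv : β y v = 0) : y = 0 := by
  rw [hy, map_smul, LinearMap.smul_apply, h.vv, smul_eq_mul] at hv
  have := h.dpos
  rw [hy, (mul_eq_zero.1 hv).resolve_right (by positivity), zero_smul]

variable {r : V} (hr : r ∈ L) (hv : β r v = 0) (h2 : β r r = 2)
include hr hv h2

theorem root_c : ∃ c : ℕ → ℤ, (∀ i, β r (ρ (σ ^ i) r) = c i) ∧ c 0 = 2 ∧
    (∀ i, 0 < i → i < 23 → c i ∈ ([-1, 0, 1] : List ℤ)) ∧ ∑ i ∈ Finset.range 23, c i = 0 := by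
  choose c hc using fun i => h.pair.int r hr _ (h.pair.stab (σ ^ i) r hr)
  have h0 : r ≠ 0 := by rintro rfl; simp at h2
  refine ⟨c, hc, ?_, fun i h3 h4 => root_ip h.pd h2 (by rw [h.pair.inv, h2]) (hc i) (fun e => ?_) fun e => ?_, ?_⟩
  · have := hc 0
    rw [pow_zero, app_one, h2] at this
    exact_mod_cast this.symm
  · obtain ⟨a, ha⟩ := (h.fix.pow h3 h4).only r e.symm
    exact h0 (h.eq_zero_of_par ha hv)
  · obtain ⟨a, ha⟩ := ((h.fix.pow h3 h4).pow (a := 2) (by norm_num) (by norm_num)).only r (by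
      rw [sq, app_mul, ← neg_eq_iff_eq_neg.2 e, map_neg, ← e])
    exact h0 (h.eq_zero_of_par ha hv)
  · have := congrArg (β r) (h.nm r)
    rw [hv, zero_div, zero_smul, map_zero, map_sum] at this
    simp only [hc] at this
    exact_mod_cast this

theorem root_cart (h1 : β r (ρ σ r) = -1) (s : Fin 23) : β r (ρ (σ ^ s.val) r) = cart s := by
  obtain ⟨c, hc, c0, hb, hs⟩ := h.root_c hr hv h2
  have c1 : c 1 = -1 := by
    have := hc 1
    rw [pow_one, h1] at this
    exact_mod_cast this.symm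
  have sy : ∀ i ≤ 23, c (23 - i) = c i := fun i hi => by
    have := h.csymm r hi
    rw [hc, hc] at this
    exact_mod_cast this
  have hq : ∀ m, 0 ≤ ∑ s : Fin 23, at' s * c (m * s.val % 23) := fun m => by
    have := psd h.pd h.pair.inv (τ := σ ^ m) (by rw [← pow_mul, mul_comm, pow_mul, h.fix.pow23, one_pow]) r
    have e : ∀ s : Fin 23, (σ ^ m) ^ s.val = σ ^ (m * s.val % 23) := fun s => by
      rw [← pow_mul, ← pow_eq_pow_mod _ h.fix.pow23]
    simp only [e, hc] at this
    exact_mod_cast this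
  have s1 := sy 1 (by norm_num); have s2 := sy 2 (by norm_num); have s3 := sy 3 (by norm_num)
  have s4 := sy 4 (by norm_num); have s5 := sy 5 (by norm_num); have s6 := sy 6 (by norm_num)
  have s7 := sy 7 (by norm_num); have s8 := sy 8 (by norm_num); have s9 := sy 9 (by norm_num)
  have s10 := sy 10 (by norm_num); have s11 := sy 11 (by norm_num)
  have q1 := hq 1; have q2 := hq 2; have q3 := hq 3; have q4 := hq 4; have q5 := hq 5; have q6 := hq 6
  have q7 := hq 7; have q8 := hq 8; have q9 := hq 9; have q10 := hq 10; have q11 := hq 11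
  simp only [Nat.reduceSub] at s1 s2 s3 s4 s5 s6 s7 s8 s9 s10 s11
  simp only [Finset.sum_range_succ, Finset.sum_range_zero] at hs
  simp only [Fin.sum_univ_succ, Fin.sum_univ_zero, at', Matrix.cons_val_zero, Matrix.cons_val_succ, Fin.val_zero,
    Fin.val_succ, Nat.reduceAdd, Nat.reduceMul, Nat.reduceMod, mul_zero, Nat.zero_mod, c0, c1, s1, s2, s3, s4,
    s5, s6, s7, s8, s9, s10, s11] at q1 q2 q3 q4 q5 q6 q7 q8 q9 q10 q11
  obtain ⟨e2, e3, e4, e5, e6, e7, e8, e9, e10, e11⟩ := key _ (hb 2 (by norm_num) (by norm_num))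
    _ (hb 3 (by norm_num) (by norm_num)) _ (hb 4 (by norm_num) (by norm_num))
    _ (hb 5 (by norm_num) (by norm_num)) _ (hb 6 (by norm_num) (by norm_num))
    _ (hb 7 (by norm_num) (by norm_num)) _ (hb 8 (by norm_num) (by norm_num))
    _ (hb 9 (by norm_num) (by norm_num)) _ (hb 10 (by norm_num) (by norm_num))
    _ (hb 11 (by norm_num) (by norm_num)) 
    (by linarith only [hs, c0, c1, s1, s2, s3, s4, s5, s6, s7, s8, s9, s10, s11])
    (by linarith only [q1])
    (by linarith only [q2])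
    (by linarith only [q3])
    (by linarith only [q4])
    (by linarith only [q5])
    (by linarith only [q6])
    (by linarith only [q7])
    (by linarith only [q8])
    (by linarith only [q9])
    (by linarith only [q10])
    (by linarith only [q11])
  rw [hc]
  congr 1
  clear hq hb hs hc sy q1 q2 q3 q4 q5 q6 q7 q8 q9 q10 q11
  fin_cases s <;> simp [cart, *]

theorem exists_frame : ∃ x : Fin 23 → V, (∀ i j, β (x i) (x j) = (if i = j then 1 else 0) - 1 / 23) ∧
    (∀ i, β (x i) v = 0) ∧ ∀ i j, x i - x j ∈ L := by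
  obtain ⟨a, h3, h4, h5⟩ : ∃ a, 0 < a ∧ a < 23 ∧ β r (ρ (σ ^ a) r) = -1 := by
    obtain ⟨c, hc, c0, hb, hs⟩ := h.root_c hr hv h2
    by_contra e
    push Not at e
    rw [Finset.sum_range_succ'] at hs
    have := Finset.sum_nonneg (s := Finset.range 22) (f := fun i => c (i + 1)) fun i hi => by
      have e1 := Finset.mem_range.1 hi
      have e2 := hb (i + 1) (by omega) (by omega)
      have e3 := e (i + 1) (by omega) (by omega)
      rw [hc] at e3
      have e4 : c (i + 1) ≠ -1 := fun t => e3 (by rw [t]; rfl)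
      simp only [List.mem_cons, List.not_mem_nil, or_false] at e2
      omega
    omega
  have k := h.pow h3 h4
  have k1 := k.root_cart hr hv h2 h5
  have k2 : ∀ s t : Fin 23, β (ρ ((σ ^ a) ^ s.val) r) (ρ ((σ ^ a) ^ t.val) r) = cart (t - s) := fun s t => by
    rw [← k1, ← ip_shift h.pair.inv k.fix.pow23 r s, add_sub_cancel]
  refine ⟨fun i => ∑ s : Fin 23, (-(((s - i).val : ℤ) : ℚ) / 23) • ρ ((σ ^ a) ^ s.val) r, fun i j => ?_,
    fun i => ?_, fun i j => ?_⟩
  · simp only [map_sum, map_smul, LinearMap.sum_apply, LinearMap.smul_apply, smul_eq_mul, Finset.mul_sum, k2]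
    have := congrArg (fun n : ℤ => (n : ℚ) / 529) (gram_chk i j)
    rw [Finset.sum_comm]
    refine Eq.trans ?_ (this.trans ?_)
    · simp only [Int.cast_sum, Int.cast_mul, Finset.sum_div]
      exact Finset.sum_congr rfl fun s _ => Finset.sum_congr rfl fun t _ => by ring
    · split_ifs <;> norm_num
  · simp only [map_sum, map_smul, LinearMap.sum_apply, LinearMap.smul_apply, k.ip, hv, smul_zero,
      Finset.sum_const_zero]
  · have e1 := k.nm r
    rw [hv, zero_div, zero_smul, Finset.sum_range] at e1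
    have e2 := L.sum_mem (t := Finset.univ) fun (s : Fin 23) _ => I.smul_mem
      ((I.div_iff (by norm_num)).2 (diff_chk i j s)) (h.pair.stab ((σ ^ a) ^ s.val) r hr)
    convert e2 using 1
    simp only [Int.cast_sub, sub_div, sub_smul, Finset.sum_sub_distrib, ← Finset.smul_sum, e1, smul_zero, sub_zero,
      neg_div, neg_smul, Finset.sum_neg_distrib]
    simp only [Int.cast_ofNat]
    abel

end Cfg

end H16.Q23
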