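import Mathlib
import Cfsg.Agent.Lib.Q23.Root

/-!
# Rational representations of degree 23: no root is orthogonal to the fixed vector
-/

set_option autoImplicit false

namespace H16.Q23

open Module

theorem sq_sum (n : Fin 23 → ℤ) : ∑ i, n i ≤ ∑ i, n i ^ 2 ∧ -∑ i, n i ≤ ∑ i, n i ^ 2 ∧
    2 ∣ ∑ i, n i ^ 2 - ∑ i, n i := by
  refine ⟨Finset.sum_le_sum fun i _ => Int.le_self_sq _, ?_, ?_⟩
  · rw [← Finset.sum_neg_distrib]
    exact Finset.sum_le_sum fun i _ => by nlinarith [Int.le_self_sq (-n i)]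
  · rw [← Finset.sum_sub_distrib]
    exact Finset.dvd_sum fun i _ => by
      have := Int.even_mul_pred_self (n i)
      rw [show n i ^ 2 - n i = n i * (n i - 1) by ring]
      exact this.two_dvd

variable {V : Type*} [AddCommGroup V] [Module ℚ V] {G : Type*} [Group G]

namespace Cfg

variable {ρ : Representation ℚ G V} {β : LinearMap.BilinForm ℚ V} {L : Submodule ℤ V} {σ : G} {v : V}
  {d : ℕ} (h : Cfg ρ β L σ v d) {x : Fin 23 → V}
  (h1 : ∀ i j, β (x i) (x j) = (if i = j then 1 else 0) - 1 / 23) (h2 : ∀ i, β (x i) v = 0)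
include h h1

theorem sum_x : ∑ i, x i = 0 := by
  refine h.pd.eq_zero (le_of_eq ?_)
  simp only [map_sum, LinearMap.sum_apply, h1, Finset.sum_sub_distrib]
  simp

theorem sum_phi (y : V) : ∑ i, β y (x i) = 0 := by rw [← map_sum, h.sum_x h1, map_zero]

theorem root_x {i j : Fin 23} (hij : i ≠ j) : β (x i - x j) (x i - x j) = 2 := by
  rw [h.pd.nsub, h1, h1, h1, if_pos rfl, if_pos rfl, if_neg hij]; ring

include h2

theorem expand (y : V) : y = ∑ i, β y (x i) • x i + (β y v / (23 * d)) • v := by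
  have := h.irr.fin
  have hd := h.dpos
  have hl : LinearIndependent ℚ fun i => x i + v := by
    rw [Fintype.linearIndependent_iff]
    intro a ha j
    have e1 := congrArg (fun z => β z v) ha
    have e2 := congrArg (fun z => β z (x j)) ha
    simp only [map_sum, map_smul, map_add, LinearMap.sum_apply, LinearMap.smul_apply, LinearMap.add_apply, h1,
      h2, h.vv, h.pd.symm v (x j), map_zero, LinearMap.zero_apply, smul_eq_mul, zero_add, add_zero,
      ← Finset.sum_mul, mul_sub, Finset.sum_sub_distrib] at e1 e2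
    have e3 : ∑ i, a i = 0 := (mul_eq_zero.1 e1).resolve_right (by positivity)
    simpa [e3] using e2
  have hs := hl.span_eq_top_of_card_eq_finrank' (by simp [h.irr.rank])
  have hy : y ∈ Submodule.span ℚ (Set.range fun i => x i + v) := by rw [hs]; trivial
  induction hy using Submodule.span_induction with
  | mem z hz =>
    obtain ⟨j, rfl⟩ := hz
    simp only [map_add, LinearMap.add_apply, h1, h2, h.vv, h.pd.symm v (x _), add_zero, zero_add, sub_smul,
      Finset.sum_sub_distrib, ← Finset.smul_sum, h.sum_x h1]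
    rw [div_self (by positivity)]
    simp
  | zero => simp
  | add a b _ _ ha hb =>
    conv_lhs => rw [ha, hb]
    simp only [map_add, LinearMap.add_apply, add_smul, add_div, Finset.sum_add_distrib]
    abel
  | smul c a _ ha =>
    conv_lhs => rw [ha]
    simp only [map_smul, LinearMap.smul_apply, smul_eq_mul, smul_add, Finset.smul_sum, smul_smul, mul_div_assoc]

theorem parseval (y w : V) : β y w = ∑ i, β y (x i) * β w (x i) + β y v * β w v / (23 * d) := by
  conv_lhs => rw [h.expand h1 h2 w]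
  simp only [map_add, map_sum, map_smul, smul_eq_mul]
  congr 1
  · exact Finset.sum_congr rfl fun i _ => mul_comm _ _
  · ring

theorem coords {y : V} (hy : ∀ i j, I (β y (x i - x j))) : ∃ (n : Fin 23 → ℤ) (s : ℤ), s = ∑ i, n i ∧
    -11 ≤ s ∧ s ≤ 11 ∧ (∀ i, β y (x i) = n i - s / 23) ∧
      β y y = (∑ i, n i ^ 2 : ℤ) - s ^ 2 / 23 + β y v ^ 2 / (23 * d) := by
  choose m hm using fun i => hy i 0
  have e1 := h.sum_phi h1 y
  have e2 : ∀ i, β y (x i) = m i + β y (x 0) := fun i => by rw [← hm, map_sub]; ring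
  rw [Finset.sum_congr rfl fun i _ => e2 i, Finset.sum_add_distrib] at e1
  simp only [Finset.sum_const, Finset.card_univ, Fintype.card_fin, nsmul_eq_mul, Nat.cast_ofNat] at e1
  obtain ⟨t, ht⟩ : ∃ t : ℤ, -11 ≤ ∑ i, m i - 23 * t ∧ ∑ i, m i - 23 * t ≤ 11 :=
    ⟨(∑ i, m i + 11) / 23, by omega, by omega⟩
  have e3 : ∀ i, β y (x i) = ((m i - t : ℤ) : ℚ) - ((∑ i, m i - 23 * t : ℤ) : ℚ) / 23 := fun i => by
    rw [e2]; push_cast; linarith
  have e4 : ∑ i, m i - 23 * t = ∑ i, (m i - t) := by simp [Finset.sum_sub_distrib]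
  refine ⟨fun i => m i - t, _, e4, ht.1, ht.2, e3, ?_⟩
  rw [h.parseval h1 h2, ← sq, add_left_inj]
  simp only [e3]
  rw [e4]
  obtain ⟨n, hn⟩ : ∃ n : Fin 23 → ℤ, ∀ i, m i - t = n i := ⟨_, fun _ => rfl⟩
  simp only [hn]
  push_cast
  simp only [mul_sub, sub_mul, Finset.sum_sub_distrib, ← Finset.sum_mul, ← Finset.mul_sum, Finset.sum_const,
    Finset.card_univ, Fintype.card_fin, nsmul_eq_mul, Nat.cast_ofNat, sq]
  ring

end Cfg

theorem Cfg.no_root0 [Finite G] {ρ : Representation ℚ G V} {β : LinearMap.BilinForm ℚ V} {L : Submodule ℤ V}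
    {σ : G} {v : V} {d : ℕ} (h : Cfg ρ β L σ v d) (h4 : ¬ 4 ∣ d) {r : V} (hr : r ∈ L) (hv : β r v = 0) :
    β r r ≠ 2 := by
  intro hn
  obtain ⟨x, h1, h2, h3⟩ := h.exists_frame hr hv hn
  have hd := h.dpos
  have hc : ∀ y ∈ L, ∀ i j, I (β y (x i - x j)) := fun y hy i j => h.pair.int _ hy _ (h3 i j)
  obtain ⟨g, hg⟩ := h.irr.exists_not_orth h.pd (y := r) (by rintro rfl; simp at hn) h.fix.ne
  have hr0 := h.pair.stab g r hr
  have hn0 : β (ρ g r) (ρ g r) = 2 := by rw [h.pair.inv, hn]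
  generalize ρ g r = r0 at hg hr0 hn0
  have hk : ∀ z ∈ L, β z z = 2 → ∀ k : ℤ, β z v = k * d → k ≠ 0 → (k ^ 2 * d = 24 ∨ k ^ 2 * d = 4) ∧
      ∃ (n : Fin 23 → ℤ) (s : ℤ), s = ∑ i, n i ∧ ¬ 23 ∣ s ∧ ∀ i, β z (x i) = n i - s / 23 := by
    intro z hz hz2 k hk hk0
    obtain ⟨n, s, e1, e2, e3, e4, e5⟩ := h.coords h1 h2 (hc z hz)
    obtain ⟨f1, f2, f3⟩ := sq_sum n
    rw [← e1] at f1 f2 f3
    have e6 : 23 * ∑ i, n i ^ 2 - s ^ 2 + k ^ 2 * d = 46 := by
      rw [hz2, hk] at e5
      have : (23 * (∑ i, n i ^ 2 : ℤ) - s ^ 2 + k ^ 2 * d : ℚ) = 46 := by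
        field_simp at e5; linarith
      exact_mod_cast this
    have e7 : 0 < k ^ 2 * d := mul_pos (by positivity) (by exact_mod_cast hd)
    have e8 : k ^ 2 * d ≠ 46 := fun c => by
      have c1 : (23 : ℤ) ∣ k ^ 2 * d := ⟨2, c⟩
      have hp : Prime (23 : ℤ) := Int.prime_iff_natAbs_prime.2 (by norm_num)
      rcases hp.dvd_or_dvd c1 with c2 | c2
      · obtain ⟨a, rfl⟩ := hp.dvd_of_dvd_pow c2
        have : (23 : ℤ) * (a ^ 2 * d) = 2 := by linarith
        omega
      · exact h.cop (by exact_mod_cast c2)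
    refine ⟨?_, n, s, e1, ?_, e4⟩
    · generalize k ^ 2 * d = K at *
      interval_cases s <;> omega
    · generalize k ^ 2 * d = K at *
      interval_cases s <;> omega
  obtain ⟨k0, hk0⟩ := h.exk hr0
  have hk1 : k0 ≠ 0 := by rintro rfl; simp [hk0] at hg
  obtain ⟨e1, n0, s0, e2, e3, e4⟩ := hk r0 hr0 hn0 k0 hk0 hk1
  have hd' : d = 1 ∨ d = 6 := by
    have f1 : 0 < d := by exact_mod_cast hd
    have f2 : 1 ≤ k0 ^ 2 := by nlinarith [sq_pos_of_ne_zero hk1]
    have f3 : (d : ℤ) ≤ 24 := by rcases e1 with c | c <;> nlinarith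
    have f4 : -5 < k0 ∧ k0 < 5 := by
      have : (1 : ℤ) ≤ d := by exact_mod_cast f1
      constructor <;> rcases e1 with c | c <;> nlinarith
    obtain ⟨f5, f6⟩ := f4
    interval_cases k0 <;> omega
  rcases hd' with rfl | rfl
  · obtain ⟨a, ha, hav⟩ := h.one
    obtain ⟨n, s, f1, f2, f3, f4, f5⟩ := h.coords h1 h2 (hc a ha)
    obtain ⟨m, hm⟩ := h.pair.int a ha a ha
    have f6 : 23 * m = 23 * ∑ i, n i ^ 2 - s ^ 2 + 1 := by
      rw [hm, hav] at f5
      have : (23 * m : ℚ) = 23 * (∑ i, n i ^ 2 : ℤ) - s ^ 2 + 1 := by push_cast at f5 ⊢; linarith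
      exact_mod_cast this
    have f7 : (s : ℚ) ^ 2 = 1 := by
      have : s ^ 2 = 1 := by interval_cases s <;> omega
      exact_mod_cast this
    have hvv := h.vv
    simp only [Nat.cast_one, mul_one] at hvv hav
    have g1 : ∀ z ∈ L, I (β (x 0 + (s / 23 : ℚ) • v) z) := by
      intro z hz
      obtain ⟨k, hk⟩ := h.exk hz
      have hz' := L.sub_mem hz ((I.int k).smul_mem ha)
      have hv' : β (z - (k : ℚ) • a) v = 0 := by simp [hk, hav]
      obtain ⟨n', s', t1, t2, t3, t4, t5⟩ := h.coords h1 h2 (hc _ hz')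
      obtain ⟨m', hm'⟩ := h.pair.int _ hz' _ hz'
      have t6 : 23 * m' = 23 * ∑ i, n' i ^ 2 - s' ^ 2 := by
        rw [hm', hv'] at t5
        have : (23 * m' : ℚ) = 23 * (∑ i, n' i ^ 2 : ℤ) - s' ^ 2 := by push_cast at t5 ⊢; linarith
        exact_mod_cast this
      have t7 : s' = 0 := by interval_cases s' <;> omega
      have t8 := t4 0
      refine ⟨n' 0 + k * n 0, ?_⟩
      simp only [map_sub, map_smul, LinearMap.sub_apply, LinearMap.smul_apply, smul_eq_mul, f4, t7] at t8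
      simp only [map_add, map_smul, LinearMap.add_apply, LinearMap.smul_apply, smul_eq_mul, h.pd.symm _ z, hk]
      push_cast at t8 ⊢
      linarith
    obtain ⟨t, ht⟩ := h.dual_sub (e := 1) one_pos (by norm_num) (by rw [h.sub_one]; exact g1)
    rw [h.sub_one] at ht
    have g2 : x 0 + (s / 23 : ℚ) • v ∈ L := by
      simpa using L.add_mem ht ((I.int t).smul_mem h.mem)
    have g3 : β (x 0 + (s / 23 : ℚ) • v) (x 0 + (s / 23 : ℚ) • v) = 1 := by
      rw [h.pd.nadd, h1]
      simp only [map_smul, LinearMap.smul_apply, smul_eq_mul, h2, hvv, if_true]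
      linarith
    generalize x 0 + (s / 23 : ℚ) • v = y at g2 g3
    refine h.irr.orth h.pd h.pair.inv (y := y) (by rintro rfl; simp at g3) fun g => ?_
    obtain ⟨j, hj⟩ := h.pair.int _ (h.pair.stab g y g2) y g2
    have u1 := h.pd.nonneg (ρ g y - y)
    have u2 := h.pd.nonneg (ρ g y + y)
    rw [h.pd.nsub, h.pair.inv, g3, hj] at u1
    rw [h.pd.nadd, h.pair.inv, g3, hj] at u2
    have u3 : j ≤ 1 := by exact_mod_cast (by linarith : (j : ℚ) ≤ 1)
    have u4 : -1 ≤ j := by exact_mod_cast (by linarith : (-1 : ℚ) ≤ j)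
    interval_cases j
    · left
      refine ⟨-1, ?_⟩
      rw [neg_smul, one_smul, ← add_eq_zero_iff_eq_neg]
      exact h.pd.eq_zero (by rw [h.pd.nadd, h.pair.inv, g3, hj]; norm_num)
    · right; simpa using hj
    · left
      refine ⟨1, ?_⟩
      rw [one_smul, ← sub_eq_zero]
      exact h.pd.eq_zero (by rw [h.pd.nsub, h.pair.inv, g3, hj]; norm_num)
  · have hvv : β v v = 138 := by rw [h.vv]; norm_num
    have hk2 : ∀ k : ℤ, k ^ 2 * (6 : ℕ) = 24 ∨ k ^ 2 * (6 : ℕ) = 4 → k = 2 ∨ k = -2 := by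
      intro k hk
      have : k ^ 2 = 2 ^ 2 := by omega
      exact sq_eq_sq_iff_eq_or_eq_neg.1 this
    have hR : ∀ g, ∀ z ∈ L, β z z = 2 → I (β (ρ g ((12 : ℚ)⁻¹ • v)) z) := by
      intro g z hz hz2
      rw [← h.pair.inv g⁻¹, app_inv]
      have hz' := h.pair.stab g⁻¹ z hz
      obtain ⟨k, hk'⟩ := h.exk hz'
      rw [map_smul, LinearMap.smul_apply, h.pd.symm, hk', smul_eq_mul]
      by_cases c : k = 0
      · simpa [c] using I.zero
      · rcases hk2 k (hk _ hz' (by rw [h.pair.inv, hz2]) k hk' c).1 with rfl | rfl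
        · exact ⟨1, by norm_num⟩
        · exact ⟨-1, by norm_num⟩
    have hx : ∀ y, (∀ z ∈ L, β z z = 2 → I (β y z)) → ∀ i j, I (β y (x i - x j)) := fun y hy i j => by
      by_cases c : i = j
      · simpa [c] using I.zero
      · exact hy _ (h3 i j) (h.root_x h1 c)
    have hw : ∀ w, (∀ z ∈ L, β z z = 2 → I (β w z)) → β w v = 0 → I (β w w / 2) := by
      intro w hw hwv
      obtain ⟨n, s, f1, f2, f3, f4, f5⟩ := h.coords h1 h2 (hx w hw)
      have f6 := hw r0 hr0 hn0
      rw [h.parseval h1 h2, hwv] at f6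
      simp only [e4, mul_sub, Finset.sum_sub_distrib, ← Finset.sum_mul, h.sum_phi h1] at f6
      simp only [f4, sub_mul, Finset.sum_sub_distrib, ← Finset.mul_sum, ← Int.cast_sum, ← e2] at f6
      have f7 : (23 : ℤ) ∣ s * s0 := (I.div_iff (by norm_num)).1
        (((I.sum Finset.univ fun i _ => (I.int (n i)).mul (I.int (n0 i))).sub f6).of_eq (by push_cast; ring))
      have hp : Prime (23 : ℤ) := Int.prime_iff_natAbs_prime.2 (by norm_num)
      have f8 : s = 0 := by
        have := (hp.dvd_or_dvd f7).resolve_right e3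
        omega
      obtain ⟨-, -, t, ht⟩ := sq_sum n
      rw [← f1, f8, sub_zero] at ht
      exact ⟨t, by rw [f5, hwv, f8, ht]; push_cast; ring⟩
    have hw' : ∀ w, (∀ z ∈ L, β z z = 2 → I (β w z)) → β w v = 0 → w ≠ 0 → 2 ≤ β w w := by
      intro w a b c
      obtain ⟨t, ht⟩ := hw w a b
      have t1 := h.pd.pos w c
      have t2 : 0 < t := by exact_mod_cast (by linarith : (0 : ℚ) < t)
      have t3 : (1 : ℚ) ≤ t := by exact_mod_cast t2
      linarith
    have hn' : β ((12 : ℚ)⁻¹ • v) ((12 : ℚ)⁻¹ • v) = 23 / 24 := by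
      simp only [map_smul, LinearMap.smul_apply, smul_eq_mul, hvv]; norm_num
    refine h.irr.simplex h.pd h.pair.inv (y := (12 : ℚ)⁻¹ • v) (v := v) (κ := 1 / 2) (δ := 2)
      (smul_ne_zero (by norm_num) h.fix.ne) hn' hvv (by norm_num) (fun g => ?_) (fun a b ha hb av bv ab => ?_)
      fun m hm => by linarith
    · by_contra c
      push Not at c
      obtain ⟨c1, c2, c3⟩ := c
      have t1 := h.bnd c1 (μ := 2) fun i hi => hw' _ (fun z hz hz2 => by
        rw [map_sub, LinearMap.sub_apply, ← app_mul]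
        exact (hR _ z hz hz2).sub (hR _ z hz hz2)) (by
        rw [map_sub, LinearMap.sub_apply, h.ip, sub_self]) (sub_ne_zero.2 hi)
      have t2 := I.sum (Finset.range 23) fun i _ => hR g _ (h.pair.stab (σ ^ i) r0 hr0) (by rw [h.pair.inv, hn0])
      rw [← map_sum, h.nm, hk0, map_smul, smul_eq_mul, mul_div_cancel_right₀ _ hd.ne'] at t2
      have t3 : I (2 * β (ρ g ((12 : ℚ)⁻¹ • v)) v) := by
        rcases hk2 k0 e1 with rfl | rfl
        · exact t2
        · exact t2.neg.of_eq (by push_cast; ring)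
      obtain ⟨t, ht⟩ := t3
      have t4 : β (ρ g ((12 : ℚ)⁻¹ • v)) v = t / 2 := by linarith
      rw [h.pair.inv, hn', t4] at t1
      have t5 : t ^ 2 ≤ 1 := by
        have : (t : ℚ) ^ 2 ≤ 1 := by push_cast at t1; nlinarith
        exact_mod_cast this
      have t6 : -1 ≤ t ∧ t ≤ 1 := by constructor <;> nlinarith
      obtain ⟨t7, t8⟩ := t6
      interval_cases t
      · exact c3 (by rw [t4]; norm_num)
      · have := hw _ (hR g) (by rw [t4]; norm_num)
        rw [h.pair.inv, hn'] at this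
        have := (I.div_iff (a := 23) (b := 48) (by norm_num)).1 (this.of_eq (by norm_num))
        omega
      · exact c2 (by rw [t4]; norm_num)
    · have t1 : ∀ a, (∃ g, a = ρ g ((12 : ℚ)⁻¹ • v) ∨ a = -ρ g ((12 : ℚ)⁻¹ • v)) →
          ∀ z ∈ L, β z z = 2 → I (β a z) := by
        rintro a ⟨g, rfl | rfl⟩ z hz hz2
        · exact hR g z hz hz2
        · rw [map_neg, LinearMap.neg_apply]; exact (hR g z hz hz2).neg
      refine hw' _ (fun z hz hz2 => ?_) (by rw [map_sub, LinearMap.sub_apply, av, bv, sub_self]) (sub_ne_zero.2 ab)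
      rw [map_sub, LinearMap.sub_apply]
      exact (t1 a ha z hz hz2).sub (t1 b hb z hz hz2)

end H16.Q23
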