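import Mathlib
import Cfsg.Agent.S0400
import Cfsg.Agent.S0401
import Cfsg.Agent.S1569
import Cfsg.Agent.S5592
import Cfsg.Agent.Lib.Q23.RootB
import Cfsg.Agent.Lib.Q23.Glue

/-!
# Feit's theorem on rational representations of degree 23
-/

set_option autoImplicit false

namespace H16.Q23

open Module Cfsg

variable {V : Type*} [AddCommGroup V] [Module ℚ V] {G : Type*} [Group G]

/-- signs as elements of the group of order two -/
def sgn : ℤˣ →* Multiplicative (ZMod 2) :=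
  MonoidHom.mk' (fun u => if u = 1 then 1 else Multiplicative.ofAdd 1) (by decide)

theorem sgn_eq_one : ∀ u, sgn u = 1 → u = 1 := by decide

theorem embed {ρ : Representation ℚ G V} (hρ : ∀ g, ρ g = 1 → g = 1) {β : LinearMap.BilinForm ℚ V}
    (hi : ∀ g x y, β (ρ g x) (ρ g y) = β x y) {A : Submodule ℤ V} {y : V} (h : Cyc β A y)
    (hs : ∀ g, ∀ x ∈ A, ρ g x ∈ A) {D : ℤ} (hD : D = 4 ∨ D = 6) (hy : β y y = 23 / D) (hA : (D : ℚ) • y ∈ A)
    (f : glue A y (ZZ (Fin 1)) (fun _ => (1 : ℤ) / D) ≃+ leechLattice)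
    (hf : ∀ x, (sqNorm ((f x : leechLattice) : GolayPt → ℤ) : ℚ) = 8 * osum β (one1 D) x x)
    (t : leechLattice) (ht : ∀ w : leechLattice, sqNorm (w : GolayPt → ℤ) = 8 * D → ∃ g : Co0, g • w = t) :
    ∃ φ : G →* Multiplicative (ZMod 2) ×
      ↥(Co0 ⊓ MulAction.stabilizer (Equiv.Perm leechLattice) t), Function.Injective φ := by
  have hw : ((0 : V), fun _ : Fin 1 => (1 : ℚ)) ∈ glue A y (ZZ (Fin 1)) (fun _ => (1 : ℤ) / D) :=
    ⟨0, by simp, fun _ => by simpa using I.one⟩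
  obtain ⟨g0, hg0⟩ := ht (f ⟨_, hw⟩) (by
    have := hf ⟨_, hw⟩
    simp only [osum_apply, one1_apply, map_zero, mul_one, zero_add] at this
    exact_mod_cast this)
  let F : glue A y (ZZ (Fin 1)) (fun _ => (1 : ℤ) / D) ≃+ leechLattice :=
    f.trans (AddEquiv.mk' g0.1 g0.2.1)
  have hF : ∀ x, (sqNorm ((F x : leechLattice) : GolayPt → ℤ) : ℚ) = 8 * osum β (one1 D) x x := fun x => by
    rw [← hf]; exact congrArg _ (g0.2.2 (f x))
  have hFw : F ⟨_, hw⟩ = t := hg0
  have h1 : ∀ g, ∃ s : ℤˣ, ((s : ℤ) : ℚ) • ρ g y - y ∈ A := by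
    intro g
    obtain ⟨m, hm⟩ := h.gen (ρ g y) fun x hx => by rw [← hi g⁻¹, app_inv]; exact h.dual _ (hs _ _ hx)
    have e1 := h.norm hm
    rw [hi, hy] at e1
    have e2 : 2 * D ∣ 23 * (1 - m ^ 2) := (I.div_iff (by omega)).1 (e1.of_eq (by push_cast; field_simp))
    have e3 : D ∣ m - 1 ∨ D ∣ m + 1 := by
      rcases hD with rfl | rfl
      · have : m % 4 = 0 ∨ m % 4 = 1 ∨ m % 4 = 2 ∨ m % 4 = 3 := by omega
        obtain ⟨q, hq⟩ : ∃ q, m = 4 * q + m % 4 := ⟨m / 4, by omega⟩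
        rcases this with c | c | c | c <;> rw [c] at hq <;> subst hq <;> ring_nf at e2 <;> omega
      · have : m % 6 = 0 ∨ m % 6 = 1 ∨ m % 6 = 2 ∨ m % 6 = 3 ∨ m % 6 = 4 ∨ m % 6 = 5 := by omega
        obtain ⟨q, hq⟩ : ∃ q, m = 6 * q + m % 6 := ⟨m / 6, by omega⟩
        rcases this with c | c | c | c | c | c <;> rw [c] at hq <;> subst hq <;> ring_nf at e2 <;> omega
    rcases e3 with ⟨k, hk⟩ | ⟨k, hk⟩
    · refine ⟨1, ?_⟩
      have hk' : (m : ℚ) = 1 + k * D := by rw [mul_comm]; exact_mod_cast (by linarith : m = 1 + D * k)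
      convert A.add_mem hm ((I.int k).smul_mem hA) using 1
      simp only [hk', add_smul, smul_smul, Units.val_one, Int.cast_one, one_smul]; abel
    · refine ⟨-1, ?_⟩
      have hk' : (m : ℚ) = -1 + k * D := by rw [mul_comm]; exact_mod_cast (by linarith : m = -1 + D * k)
      convert A.neg_mem (A.add_mem hm ((I.int k).smul_mem hA)) using 1
      simp only [hk', add_smul, smul_smul, Units.val_neg, Units.val_one, Int.cast_one, Int.cast_neg, one_smul,
        neg_smul]; abel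
  have h2 : ∀ (z : V) (s s' : ℤˣ), ((s : ℤ) : ℚ) • z - y ∈ A → ((s' : ℤ) : ℚ) • z - y ∈ A → s = s' := by
    intro z s s' a b
    by_contra c
    have e1 : s' = -s := by
      rcases Int.units_eq_one_or s with rfl | rfl <;> rcases Int.units_eq_one_or s' with rfl | rfl <;>
        simp_all
    have e2 := h.dual _ (A.add_mem a b)
    rw [e1] at e2
    have e3 : D ∣ 46 := (I.div_iff (by omega)).1 (e2.neg.of_eq (by simp [hy]; ring))
    rcases hD with rfl | rfl <;> omega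
  choose ε hε using h1
  have h3 : ∀ g k, ε (g * k) = ε g * ε k := fun g k => h2 _ _ _ (hε _) (by
    convert A.add_mem ((I.int (ε g)).smul_mem (hs g _ (hε k))) (hε g) using 1
    simp only [app_mul, map_sub, map_smul, smul_sub, smul_smul, Units.val_mul, Int.cast_mul]; abel)
  have h4 : ε 1 = 1 := h2 _ _ _ (hε 1) (by simp)
  let Θ : G → glue A y (ZZ (Fin 1)) (fun _ => (1 : ℤ) / D) → glue A y (ZZ (Fin 1)) (fun _ => (1 : ℤ) / D) :=
    fun g p => ⟨(((ε g : ℤ) : ℚ) • ρ g p.1.1, p.1.2), by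
      obtain ⟨m, a, b⟩ := p.2
      refine ⟨m, ?_, b⟩
      convert A.add_mem ((I.int (ε g)).smul_mem (hs g _ a)) ((I.int m).smul_mem (hε g)) using 1
      simp only [map_sub, map_smul, smul_sub, smul_smul, mul_comm (m : ℚ)]; abel⟩
  let T : G →* Function.End leechLattice :=
    { toFun := fun g x => F (Θ g (F.symm x))
      map_one' := funext fun x => by
        have : Θ 1 (F.symm x) = F.symm x := Subtype.ext (Prod.ext (by simp [Θ, h4]) rfl)
        rw [this, F.apply_symm_apply]; rfl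
      map_mul' := fun g k => funext fun x => by
        change F (Θ (g * k) (F.symm x)) = F (Θ g (F.symm (F (Θ k (F.symm x)))))
        rw [F.symm_apply_apply]
        congr 1
        exact Subtype.ext (Prod.ext (by simp [Θ, h3, smul_smul]) rfl) }
  have hT : ∀ g x, T.toHomPerm g x = F (Θ g (F.symm x)) := fun g x => rfl
  have hm : ∀ g, T.toHomPerm g ∈ Co0 ⊓ MulAction.stabilizer (Equiv.Perm leechLattice) t := by
    intro g
    refine ⟨⟨fun a b => ?_, fun a => ?_⟩, ?_⟩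
    · rw [hT, hT, hT, ← map_add, map_add F.symm]
      congr 1
      exact Subtype.ext (Prod.ext (by simp [Θ]) rfl)
    · have e1 := hF (Θ g (F.symm a))
      have e2 := hF (F.symm a)
      rw [F.apply_symm_apply] at e2
      have e3 : (((ε g : ℤ) : ℚ)) * ((ε g : ℤ) : ℚ) = 1 := by exact_mod_cast Int.units_coe_mul_self (ε g)
      have : osum β (one1 D) (Θ g (F.symm a)) (Θ g (F.symm a)) = osum β (one1 D) (F.symm a) (F.symm a) := by
        simp only [Θ, osum_apply, map_smul, LinearMap.smul_apply, smul_eq_mul, hi, ← mul_assoc, e3, one_mul]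
      rw [this, ← e2] at e1
      rw [hT]
      exact_mod_cast e1
    · change T.toHomPerm g t = t
      rw [hT, ← hFw, F.symm_apply_apply]
      congr 1
      exact Subtype.ext (Prod.ext (by simp [Θ]) rfl)
  refine ⟨(sgn.comp (MonoidHom.mk' ε h3)).prod (T.toHomPerm.codRestrict _ hm),
    (injective_iff_map_eq_one _).2 fun g hg => hρ g ?_⟩
  have e1 : ε g = 1 := sgn_eq_one _ (congrArg Prod.fst hg)
  have e2 : T.toHomPerm g = 1 := congrArg Subtype.val (congrArg Prod.snd hg)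
  refine LinearMap.ext_on h.lat.span_eq_top fun a ha => ?_
  have e3 : (a, (0 : Fin 1 → ℚ)) ∈ glue A y (ZZ (Fin 1)) (fun _ => (1 : ℤ) / D) :=
    ⟨0, by simpa using ha, by simp⟩
  have e4 := hT g (F ⟨_, e3⟩)
  rw [e2, F.symm_apply_apply, Equiv.Perm.one_apply] at e4
  have e5 := congrArg (fun p => p.1.1) (F.injective e4)
  simpa [Θ, e1] using e5.symm

namespace Cfg

variable {ρ : Representation ℚ G V} {β : LinearMap.BilinForm ℚ V} {L : Submodule ℤ V} {σ : G} {v : V}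
  {d : ℕ} (h : Cfg ρ β L σ v d)
include h

theorem cyc {e : ℕ} (he : e = 2 ∨ e = 1 ∧ 2 ∣ d) : Cyc β (Sub β L v (e * d)) ((e * d : ℚ)⁻¹ • v) :=
  ⟨h.pd, h.sub_lat (by omega), fun _ hx => h.sub_even (by omega) hx, fun _ hx => h.y0_dual _ hx,
    fun _ hz => h.dual_sub (by omega) (by omega) hz⟩

theorem y0_norm {e : ℕ} (he : 0 < e) :
    β ((e * d : ℚ)⁻¹ • v) ((e * d : ℚ)⁻¹ • v) = 23 / ((e * e * d : ℕ) : ℤ) := by
  have := h.dpos
  simp only [map_smul, LinearMap.smul_apply, smul_eq_mul, h.vv]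
  push_cast; field_simp

theorem y0_mem {e : ℕ} (he : 0 < e) : (((e * e * d : ℕ) : ℤ) : ℚ) • (e * d : ℚ)⁻¹ • v ∈ Sub β L v (e * d) := by
  have := h.dpos
  convert h.smul_mem_sub he h.mem using 1
  rw [smul_smul]; congr 1; push_cast; field_simp

variable (h0 : ∀ r ∈ L, β r v = 0 → β r r ≠ 2)
include h0

theorem four_le {x : V} (hx : x ∈ L) (hv : β x v = 0) (hx0 : x ≠ 0) : 4 ≤ β x x := by
  obtain ⟨n, hn⟩ := h.even0 hx hv
  have e1 := h.pd.pos x hx0
  have e2 : n ≠ 1 := by rintro rfl; exact h0 x hx hv (by push_cast at hn; linarith)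
  have e3 : 0 < n := by exact_mod_cast (by linarith : (0 : ℚ) < n)
  have e4 : (2 : ℚ) ≤ n := by exact_mod_cast (by omega : 2 ≤ n)
  linarith

theorem bnd4 {y : V} (hy : ∀ x ∈ L, β x v = 0 → I (β y x)) (hc : ∀ c : ℚ, y ≠ c • v) :
    44 + β y v ^ 2 / d ≤ 23 * β y y := by
  have := h.bnd hc (μ := 4) fun i hi => h.four_le h0 (h.diff_mem hy i)
    (by rw [map_sub, LinearMap.sub_apply, h.ip, sub_self]) (sub_ne_zero.2 hi)
  linarith

theorem no_root [Finite G] {r : V} (hr : r ∈ L) : β r r ≠ 2 := by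
  intro hn
  have hd := h.dpos
  have h1 : ∀ g, d = 2 ∧ (β (ρ g r) v = 2 ∨ β (ρ g r) v = -2) := by
    intro g
    have hr' := h.pair.stab g r hr
    have hn' : β (ρ g r) (ρ g r) = 2 := by rw [h.pair.inv, hn]
    generalize ρ g r = z at hr' hn'
    obtain ⟨k, hk⟩ := h.exk hr'
    have e1 : k ≠ 0 := by rintro rfl; exact h0 z hr' (by simpa using hk) hn'
    have e2 := h.bnd4 h0 (fun x hx _ => h.pair.int z hr' x hx) fun c hc => by
      obtain ⟨a, ha, hav⟩ := h.one
      obtain ⟨m, hm⟩ := h.pair.int a ha z hr'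
      rw [hc] at hm hn'
      simp only [map_smul, LinearMap.smul_apply, smul_eq_mul, h.vv, hav] at hm hn'
      have : (23 * m ^ 2 : ℚ) = 2 * d := by rw [← hm, ← hn']; ring
      have : 23 * m ^ 2 = 2 * (d : ℤ) := by exact_mod_cast this
      have := h.cop
      omega
    rw [hk, hn', mul_pow, sq (d : ℚ), ← mul_assoc, mul_div_cancel_right₀ _ hd.ne'] at e2
    have e3 : k ^ 2 * d ≤ 2 := by exact_mod_cast (by linarith : (k : ℚ) ^ 2 * d ≤ 2)
    have e4 : (2 : ℤ) ∣ 2 - k ^ 2 * d := (I.div_iff (by norm_num)).1 ((h.par hr' hk).of_eq (by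
      rw [hn']; push_cast; ring))
    have e5 : (1 : ℤ) ≤ d := by exact_mod_cast (by exact_mod_cast hd : 0 < d)
    have e6 : 1 ≤ k ^ 2 := by nlinarith [sq_pos_of_ne_zero e1]
    have e7 : k ^ 2 * d = 2 := by
      have : 1 ≤ k ^ 2 * d := by nlinarith
      omega
    have e8 : -2 < k ∧ k < 2 := by constructor <;> nlinarith
    obtain ⟨e9, e10⟩ := e8
    rw [hk]
    have e11 : d = 2 := by interval_cases k <;> omega
    subst e11
    interval_cases k <;> simp_all
  obtain ⟨rfl, -⟩ := h1 1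
  refine h.irr.simplex h.pd h.pair.inv (y := r) (v := v) (κ := 2) (δ := 4) (by rintro rfl; simp at hn) hn h.vv
    (by norm_num) (fun g => .inr (h1 g).2) (fun a b ha hb av bv ab => ?_) fun m hm => by push_cast; linarith
  have t1 : ∀ a, (∃ g, a = ρ g r ∨ a = -ρ g r) → a ∈ L := by
    rintro a ⟨g, rfl | rfl⟩
    exacts [h.pair.stab g r hr, L.neg_mem (h.pair.stab g r hr)]
  exact h.four_le h0 (L.sub_mem (t1 a ha) (t1 b hb)) (by rw [map_sub, LinearMap.sub_apply, av, bv, sub_self])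
    (sub_ne_zero.2 ab)

theorem small {e : ℕ} (he : 0 < e) (hs : ∀ g, ∀ x ∈ Sub β L v (e * d), ρ g x ∈ Sub β L v (e * d)) :
    e * e * d ≤ 12 := by
  have hd := h.dpos
  have he' : (0 : ℚ) < e := by exact_mod_cast he
  obtain ⟨g, hg⟩ := h.irr.exists_not_par (y := (e * d : ℚ)⁻¹ • v) (smul_ne_zero (by positivity) h.fix.ne) v
  have := h.bnd4 h0 (fun x hx hv => by
    rw [← h.pair.inv g⁻¹, app_inv]; exact h.y0_dual _ (hs _ _ (mem_sub0 _ hx hv))) hg
  rw [h.pair.inv, h.y0_norm he] at this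
  have e1 : (0 : ℚ) < ((e * e * d : ℕ) : ℤ) := by push_cast; positivity
  have e2 : 44 ≤ 23 * (23 / (((e * e * d : ℕ) : ℤ) : ℚ)) :=
    le_trans (le_add_of_nonneg_right (by positivity)) this
  rw [← mul_div_assoc, le_div_iff₀ e1] at e2
  have e3 : 44 * (e * e * d) ≤ 23 * 23 := by exact_mod_cast e2
  omega

theorem not_three [Finite G] : d ≠ 3 := by
  rintro rfl
  have hs := h.sub_stab (by norm_num)
  have hn := h.y0_norm (e := 2) (by norm_num)
  have hR : ∀ g, ∀ x ∈ Sub β L v ((2 : ℕ) * (3 : ℕ)), I (β (ρ g (((2 : ℕ) * (3 : ℕ) : ℚ)⁻¹ • v)) x) :=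
    fun g x hx => by rw [← h.pair.inv g⁻¹, app_inv]; exact h.y0_dual _ (hs _ hx)
  refine h.irr.simplex h.pd h.pair.inv (v := v) (κ := 1 / 2) (δ := 4)
    (smul_ne_zero (by norm_num) h.fix.ne) hn h.vv (by norm_num) (fun g => ?_) (fun a b ha hb av bv ab => ?_)
    fun m hm => by push_cast; linarith
  · by_contra c
    push Not at c
    obtain ⟨c1, c2, c3⟩ := c
    have t1 := h.bnd4 h0 (fun x hx hv => hR g x (mem_sub0 _ hx hv)) c1
    obtain ⟨t, ht⟩ := hR g _ (h.smul_mem_sub (e := 2) (by norm_num) h.mem)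
    have t4 : β (ρ g (((2 : ℕ) * (3 : ℕ) : ℚ)⁻¹ • v)) v = t / 2 := by
      rw [map_smul, smul_eq_mul] at ht; push_cast at ht ⊢; linarith
    rw [h.pair.inv, hn, t4] at t1
    have t5 : t ^ 2 ≤ 1 := by
      have : (t : ℚ) ^ 2 ≤ 1 := by push_cast at t1; nlinarith
      exact_mod_cast this
    have t6 : -1 ≤ t ∧ t ≤ 1 := by constructor <;> nlinarith
    obtain ⟨t7, t8⟩ := t6
    interval_cases t
    · exact c3 (by rw [t4]; norm_num)
    · have := h.dual_sub0 (e := 2) (by norm_num) (by norm_num) (hR g) (by rw [t4]; norm_num)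
      have := h.pair.int _ this _ this
      rw [h.pair.inv, hn] at this
      have := (I.div_iff (a := 23) (by norm_num)).1 this
      omega
    · exact c2 (by rw [t4]; norm_num)
  · have t1 : ∀ a, (∃ g, a = ρ g (((2 : ℕ) * (3 : ℕ) : ℚ)⁻¹ • v) ∨ a = -ρ g (((2 : ℕ) * (3 : ℕ) : ℚ)⁻¹ • v)) →
        ∀ z ∈ Sub β L v ((2 : ℕ) * (3 : ℕ)), I (β a z) := by
      rintro a ⟨g, rfl | rfl⟩ z hz
      · exact hR g z hz
      · rw [map_neg, LinearMap.neg_apply]; exact (hR g z hz).neg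
    have t2 : β (a - b) v = 0 := by rw [map_sub, LinearMap.sub_apply, av, bv, sub_self]
    refine h.four_le h0 (h.dual_sub0 (e := 2) (by norm_num) (by norm_num) (fun z hz => ?_) t2) t2
      (sub_ne_zero.2 ab)
    rw [map_sub, LinearMap.sub_apply]
    exact (t1 a ha z hz).sub (t1 b hb z hz)

theorem leech [Finite G] {e : ℕ} (he : e = 2 ∨ e = 1 ∧ 2 ∣ d) {D j : ℤ} (hD : ((e * e * d : ℕ) : ℤ) = D)
    (hj : D = 4 ∧ j = 1 ∨ D = 6 ∧ j = 1 ∨ D = 8 ∧ j = 3) :
    ∃ f : glue (Sub β L v (e * d)) ((e * d : ℚ)⁻¹ • v) (ZZ (Fin 1)) (fun _ => j / D) ≃+ leechLattice,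
      ∀ x, (sqNorm ((f x : leechLattice) : GolayPt → ℤ) : ℚ) = 8 * osum β (one1 D) x x := by
  have := h.irr.fin
  have he0 : 0 < e := by omega
  have he' : (0 : ℚ) < e := by exact_mod_cast he0
  have hd := h.dpos
  have hn := h.y0_norm he0
  have hm := h.y0_mem he0
  have hc := h.cyc he
  rw [hD] at hn hm
  have hD0 : (0 : ℚ) < D := by exact_mod_cast (by omega : 0 < D)
  have k : Cyc (one1 D) (ZZ (Fin 1)) fun _ => j / D := cyc_one (by omega) (by omega) (by
    rcases hj with ⟨rfl, rfl⟩ | ⟨rfl, rfl⟩ | ⟨rfl, rfl⟩ <;> norm_num)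
  refine (hc.glue k ?_ fun m hm' => ?_).leech (by simp [h.irr.rank]) ?_
  · rw [hn, one1_apply]
    rcases hj with ⟨rfl, rfl⟩ | ⟨rfl, rfl⟩ | ⟨rfl, rfl⟩
    exacts [⟨3, by norm_num⟩, ⟨2, by norm_num⟩, ⟨2, by norm_num⟩]
  · have : D ∣ m * j ^ 2 := (I.div_iff (by omega)).1 (hm'.of_eq (by rw [one1_apply]; push_cast; field_simp))
    have : D ∣ m * j := by rcases hj with ⟨rfl, rfl⟩ | ⟨rfl, rfl⟩ | ⟨rfl, rfl⟩ <;> omega
    exact fun i => ((I.div_iff (by omega)).2 this).of_eq (by simp [mul_div_assoc])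
  · rintro p ⟨m, a, b⟩ c
    obtain ⟨n, b⟩ := b 0
    simp only [Pi.sub_apply, Pi.smul_apply, smul_eq_mul] at b
    have e1 : p.2 0 = ((m * j + n * D : ℤ) : ℚ) / D := by push_cast; field_simp; field_simp at b; linarith
    have e2 : β p.1 p.1 = 2 - ((m * j + n * D : ℤ) : ℚ) ^ 2 / D := by
      rw [osum_apply, one1_apply, e1] at c
      rw [← c]; field_simp; ring
    have e3 : D ∣ m → p.1 ∈ L := by
      rintro ⟨q, rfl⟩
      have := (Sub β L v (e * d)).add_mem a ((I.int q).smul_mem hm)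
      rw [smul_smul (q : ℚ), mul_comm (q : ℚ), ← Int.cast_mul, sub_add_cancel] at this
      exact this.1
    have e4 : ∀ x ∈ Sub β L v (e * d), I (β p.1 x) := fun x hx =>
      ((h.pair.int _ a.1 _ hx.1).add ((I.int m).mul (hc.dual x hx))).of_eq (by simp)
    generalize ht : m * j + n * D = t at e1 e2
    by_cases t0 : t = 0
    · refine h.no_root h0 (e3 ?_) (by simp [e2, t0])
      rcases hj with ⟨rfl, rfl⟩ | ⟨rfl, rfl⟩ | ⟨rfl, rfl⟩ <;> omega
    have t1 : (1 : ℚ) ≤ t ^ 2 := by exact_mod_cast (by nlinarith [sq_pos_of_ne_zero t0] : 1 ≤ t ^ 2)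
    have t2 : (D : ℚ) ≤ 8 := by exact_mod_cast (by omega : D ≤ 8)
    have t3 : (1 : ℚ) / 8 ≤ t ^ 2 / D := by rw [div_le_div_iff₀ (by norm_num) hD0]; linarith
    by_cases t4 : ∀ c : ℚ, p.1 ≠ c • v
    · have := h.bnd4 h0 (fun x hx hv => e4 x (mem_sub0 _ hx hv)) t4
      have t5 : 0 ≤ β p.1 v ^ 2 / d := by positivity
      linarith
    push Not at t4
    obtain ⟨q, hq⟩ := t4
    obtain ⟨z, hz, hzv⟩ := h.one
    obtain ⟨u, hu⟩ := e4 _ (h.smul_mem_sub he0 hz)
    have t5 : p.1 = (u : ℚ) • (e * d : ℚ)⁻¹ • v := by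
      rw [hq] at hu
      simp only [map_smul, LinearMap.smul_apply, smul_eq_mul, h.pd.symm v z, hzv] at hu
      rw [hq, smul_smul, ← hu]; congr 1; field_simp
    have t6 : 23 * u ^ 2 + t ^ 2 = 2 * D := by
      rw [t5, map_smul β, LinearMap.smul_apply, map_smul, hn, smul_eq_mul, smul_eq_mul] at e2
      field_simp at e2
      exact_mod_cast (by linarith : (23 * u ^ 2 + t ^ 2 : ℚ) = 2 * D)
    have t7 : u = 0 := by
      by_contra c
      have := sq_pos_of_ne_zero c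
      have := sq_nonneg t
      omega
    rw [t7] at t5 t6
    have t8 := hc.dual _ a
    rw [t5, Int.cast_zero, zero_smul, zero_sub, map_neg, map_smul, hn] at t8
    have t9 : D ∣ 23 * m := (I.div_iff (by omega)).1 (t8.neg.of_eq (by simp; ring))
    have t13 : t ^ 2 ≤ 16 := by omega
    have t10 : -5 < t ∧ t < 5 := by constructor <;> nlinarith
    obtain ⟨t11, t12⟩ := t10
    rcases hj with ⟨rfl, rfl⟩ | ⟨rfl, rfl⟩ | ⟨rfl, rfl⟩ <;> interval_cases t <;> omega

theorem not_two [Finite G] : d ≠ 2 := by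
  rintro rfl
  obtain ⟨f, hf⟩ := h.leech h0 (e := 2) (.inl rfl) (D := 8) (j := 3) rfl (by simp)
  have hw : ((0 : V), fun _ : Fin 1 => (1 : ℚ)) ∈ glue (Sub β L v ((2 : ℕ) * (2 : ℕ)))
      (((2 : ℕ) * (2 : ℕ) : ℚ)⁻¹ • v) (ZZ (Fin 1)) (fun _ => (3 : ℤ) / (8 : ℤ)) :=
    ⟨0, by simp, fun _ => by simpa using I.one⟩
  have e1 : sqNorm ((f ⟨_, hw⟩ : leechLattice) : GolayPt → ℤ) = 64 := by
    have := hf ⟨_, hw⟩
    simp only [osum_apply, one1_apply, map_zero, mul_one, zero_add] at this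
    exact_mod_cast this
  have e2 := Cfsg.Agent.S1569.result _ (f ⟨_, hw⟩).2 e1
  obtain ⟨u, ⟨u1, u2, z, z1, z2⟩, hu⟩ : ∃ u ∈ cross ((f ⟨_, hw⟩ : leechLattice) : GolayPt → ℤ),
      u ∉ ({((f ⟨_, hw⟩ : leechLattice) : GolayPt → ℤ), -((f ⟨_, hw⟩ : leechLattice) : GolayPt → ℤ)} : Set _) := by
    by_contra c
    push Not at c
    have := (Set.ncard_le_ncard c (Set.toFinite _)).trans (Set.ncard_insert_le _ _)
    rw [e2, Set.ncard_singleton] at this
    omega
  simp only [Set.mem_insert_iff, Set.mem_singleton_iff, not_or] at hu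
  obtain ⟨p, hp⟩ := f.surjective ⟨z, z1⟩
  have e3 : (f (⟨_, hw⟩ - 2 • p) : GolayPt → ℤ) = u := by
    rw [map_sub, map_nsmul, hp, AddSubgroupClass.coe_sub, AddSubgroupClass.coe_nsmul, ← z2, sub_sub_cancel]
  rcases Cfsg.Agent.S5592.result _ _ (f ⟨_, hw⟩).2 u1 (Ne.symm hu.1) e1.le (u2.trans e1).le ⟨z, z1, z2⟩ with
    c | ⟨-, -, c⟩
  · exact hu.2 (by rw [c, neg_neg])
  have e4 : sqNorm (2 • z) = 128 := by
    rw [e1] at u2
    simp only [← z2, sqNorm, dotInt, Pi.sub_apply, sub_sq, Finset.sum_add_distrib, Finset.sum_sub_distrib,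
      mul_assoc, ← Finset.mul_sum] at *
    omega
  have e5 := hf (2 • p)
  have e6 := hf (⟨_, hw⟩ - 2 • p)
  rw [map_nsmul, hp, AddSubgroupClass.coe_nsmul, e4] at e5
  rw [e3, u2, e1] at e6
  obtain ⟨⟨a, b⟩, m, p1, p2⟩ := p
  obtain ⟨n, p2⟩ := p2 0
  simp [osum_apply, one1_apply] at e5 e6 p2
  have e7 : b 0 = 1 / 2 := by linarith
  have e8 : β a a = 2 := by rw [e7] at e5; linarith
  rw [e7] at p2
  have e9 : 4 - 3 * m = 8 * n := by exact_mod_cast (by linarith : (4 - 3 * m : ℚ) = 8 * n)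
  obtain ⟨q, rfl⟩ : 4 ∣ m := by omega
  refine h.no_root h0 ?_ e8
  convert L.add_mem p1.1 ((I.int q).smul_mem h.mem) using 1
  simp only [smul_smul]; push_cast
  rw [show (4 : ℚ) * q * (2 * 2)⁻¹ = q by ring, sub_add_cancel]

end Cfg

theorem Cfg.main [Finite G] {ρ : Representation ℚ G V} (hρ : ∀ g, ρ g = 1 → g = 1)
    {β : LinearMap.BilinForm ℚ V} {σ : G} (d : ℕ) : ∀ {L : Submodule ℤ V} {v : V}, Cfg ρ β L σ v d →
    (∃ f : G →* Multiplicative (ZMod 2) × Spor.Co2, Function.Injective f) ∨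
    (∃ f : G →* Multiplicative (ZMod 2) × Spor.Co3, Function.Injective f) := by
  induction d using Nat.strong_induction_on with
  | _ d ih =>
    intro L v h
    have hd : 0 < d := by exact_mod_cast h.dpos
    by_cases h4 : 4 ∣ d
    · obtain ⟨c, hc⟩ := h4
      obtain ⟨L', h'⟩ := h.reduce hc
      exact ih c (by omega) h'
    have h0 := fun r hr hv => h.no_root0 h4 (r := r) hr hv
    have h2 := h.not_two h0
    have h3 := h.not_three h0
    by_cases he : 2 ∣ d
    · have hs : ∀ g, ∀ x ∈ Sub β L v ((1 : ℕ) * d), ρ g x ∈ Sub β L v ((1 : ℕ) * d) := by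
        rw [h.sub_one]; exact h.pair.stab
      have h5 := h.small h0 one_pos hs
      have h6 : d = 6 ∨ d = 10 := by omega
      rcases h6 with rfl | rfl
      · obtain ⟨f, hf⟩ := h.leech h0 (e := 1) (.inr ⟨rfl, he⟩) (D := 6) (j := 1) rfl (by simp)
        exact .inr (embed hρ h.pair.inv (h.cyc (.inr ⟨rfl, he⟩)) hs (.inr rfl) (h.y0_norm one_pos)
          (h.y0_mem one_pos) f hf Spor.leechV fun w hw => Cfsg.Agent.S0401.result w _ hw (by decide))
      · exact ((h.cyc (.inr ⟨rfl, he⟩)).not_ten h.irr.rank ((h.y0_norm one_pos).trans (by norm_num))).elim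
    · have hs := fun g x hx => h.sub_stab he g (x := x) hx
      have h5 := h.small h0 two_pos hs
      obtain rfl : d = 1 := by omega
      obtain ⟨f, hf⟩ := h.leech h0 (e := 2) (.inl rfl) (D := 4) (j := 1) rfl (by simp)
      exact .inl (embed hρ h.pair.inv (h.cyc (.inl rfl)) hs (.inl rfl) (h.y0_norm two_pos)
        (h.y0_mem two_pos) f hf Spor.leechU fun w hw => Cfsg.Agent.S0400.result w _ hw (by decide))

theorem Irr.main [Finite G] {ρ : Representation ℚ G V} (h : Irr ρ) (hρ : ∀ g, ρ g = 1 → g = 1) :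
    (∃ f : G →* Multiplicative (ZMod 2) × Spor.Co2, Function.Injective f) ∨
    (∃ f : G →* Multiplicative (ZMod 2) × Spor.Co3, Function.Injective f) := by
  obtain ⟨β, L, σ, v, d, k⟩ := h.exists_cfg hρ
  exact Cfg.main hρ d k

theorem eqns_Main : True := by
  have := @sgn.eq_1
  trivial

end H16.Q23
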